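import Mathlib
import Cfsg.Prelude.Def_GeometricClasses

/-!
# Project SPG-XT (helper1, for S5662), piece XT-M1 (helper60)

A group of pairwise commuting involutions of trace zero fixing a symplectic form on `F^n`
(`2 ≠ 0`, `n ≠ 0` in `F`) has fewer than `n` elements: the simultaneous eigenvectors, one for each
character, are linearly independent and pairwise orthogonal.
-/

set_option autoImplicit false

namespace Cfsg.Agent.Lib.Helper60.SPGXTM1

open Matrix Cfsg.Geo

/-- the abstract form of `XTM1`: a finite commutative group of exponent 2 acting by isometries of a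
symplectic form, all non-identity elements of trace zero, has fewer than `n` elements -/
theorem XTM1_core {n : ℕ} {F : Type*} [Field F] {A : Type*} [CommGroup A] [Finite A]
    (hn : 1 ≤ n) (f : (Fin n → F) → (Fin n → F) → F) (hf : IsSymplecticForm f)
    (h2 : (2 : F) ≠ 0) (hn0 : (n : F) ≠ 0) (ρ : A →* GL (Fin n) F)
    (hsq : ∀ a : A, a * a = 1)
    (hfix : ∀ (a : A) (u v : Fin n → F), f ((ρ a).1 *ᵥ u) ((ρ a).1 *ᵥ v) = f u v)
    (htr : ∀ a : A, a ≠ 1 → Matrix.trace (ρ a).1 = 0) : Nat.card A < n := by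
  classical
  by_contra hcon
  push Not at hcon
  have hAfin : Fintype A := Fintype.ofFinite A
  -- characters
  have hexp : Monoid.exponent A ∣ 2 :=
    Monoid.exponent_dvd_of_forall_pow_eq_one (fun a => by rw [pow_two]; exact hsq a)
  have hprim : IsPrimitiveRoot (-1 : F) 2 := by
    refine IsPrimitiveRoot.mk_of_lt _ (by norm_num) (by norm_num) ?_
    intro l hl0 hl2
    have hl1 : l = 1 := by omega
    subst hl1
    rw [pow_one]
    intro h
    apply h2
    linear_combination (-1 : F) * h
  have h2R : HasEnoughRootsOfUnity F 2 := ⟨⟨-1, hprim⟩, rootsOfUnity.isCyclic F 2⟩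
  have hER : HasEnoughRootsOfUnity F (Monoid.exponent A) := HasEnoughRootsOfUnity.of_dvd F hexp
  have hcardX : Nat.card (A →* Fˣ) = Nat.card A :=
    CommGroup.card_monoidHom_of_hasEnoughRootsOfUnity A F
  have hXfin : Finite (A →* Fˣ) :=
    Nat.finite_of_card_ne_zero (by rw [hcardX]; exact Nat.card_pos.ne')
  have hXft : Fintype (A →* Fˣ) := Fintype.ofFinite _
  have hval : ∀ (χ : A →* Fˣ) (a : A), ((χ a : Fˣ) : F) * ((χ a : Fˣ) : F) = 1 := by
    intro χ a
    rw [← Units.val_mul, ← map_mul, hsq, map_one, Units.val_one]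
  -- the averaging elements
  let e : (A →* Fˣ) → Matrix (Fin n) (Fin n) F := fun χ => ∑ a : A, ((χ a : Fˣ) : F) • (ρ a).1
  have he_mul : ∀ (χ : A →* Fˣ) (b : A), (ρ b).1 * e χ = ((χ b : Fˣ) : F) • e χ := by
    intro χ b
    show (ρ b).1 * ∑ a : A, ((χ a : Fˣ) : F) • (ρ a).1 =
      ((χ b : Fˣ) : F) • ∑ a : A, ((χ a : Fˣ) : F) • (ρ a).1
    rw [Finset.mul_sum, Finset.smul_sum]
    symm
    apply Fintype.sum_equiv (Equiv.mulLeft b)
    intro a
    simp only [Equiv.coe_mulLeft]
    rw [Matrix.mul_smul, ← Units.val_mul, ← map_mul ρ, ← mul_assoc, hsq, one_mul, smul_smul,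
      map_mul χ, Units.val_mul]
  have he_tr : ∀ χ : A →* Fˣ, Matrix.trace (e χ) = (n : F) := by
    intro χ
    show Matrix.trace (∑ a : A, ((χ a : Fˣ) : F) • (ρ a).1) = (n : F)
    rw [Matrix.trace_sum, Finset.sum_eq_single (1 : A)]
    · rw [map_one, map_one, Units.val_one, Units.val_one, one_smul, Matrix.trace_one,
        Fintype.card_fin]
    · intro a _ ha
      rw [Matrix.trace_smul, htr a ha, smul_zero]
    · intro h
      exact absurd (Finset.mem_univ _) h
  have he_ne : ∀ χ : A →* Fˣ, e χ ≠ 0 := by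
    intro χ h0
    have h1 := he_tr χ
    rw [h0, Matrix.trace_zero] at h1
    exact hn0 h1.symm
  -- eigenvectors
  have hv : ∀ χ : A →* Fˣ, ∃ v : Fin n → F, v ≠ 0 ∧
      ∀ a : A, (ρ a).1 *ᵥ v = ((χ a : Fˣ) : F) • v := by
    intro χ
    have h1 : ∃ j : Fin n, (fun i => e χ i j) ≠ 0 := by
      by_contra hcon2
      push Not at hcon2
      apply he_ne χ
      ext i j
      exact congrFun (hcon2 j) i
    obtain ⟨j, hj⟩ := h1
    refine ⟨fun i => e χ i j, hj, fun a => ?_⟩
    funext i
    have h3 := congrFun (congrFun (he_mul χ a) i) j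
    rw [Matrix.mul_apply, Matrix.smul_apply] at h3
    simp only [Matrix.mulVec, dotProduct, Pi.smul_apply]
    exact h3
  choose v hv0 hvE using hv
  -- the eigenvectors are pairwise orthogonal
  have hperp : ∀ χ ψ : A →* Fˣ, f (v χ) (v ψ) = 0 := by
    intro χ ψ
    by_cases hχψ : χ = ψ
    · subst hχψ
      exact hf.alternating _
    · have h1 : ∃ a, χ a ≠ ψ a := by
        by_contra h
        push Not at h
        exact hχψ (MonoidHom.ext h)
      obtain ⟨a, ha⟩ := h1
      have h3 := hfix a (v χ) (v ψ)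
      rw [hvE χ a, hvE ψ a, hf.bilinear.smul_left, hf.bilinear.smul_right] at h3
      have hc : ((χ a : Fˣ) : F) * ((ψ a : Fˣ) : F) = -1 := by
        have h4 := hval χ a
        have h5 := hval ψ a
        have h6 : ((χ a : Fˣ) : F) ≠ ((ψ a : Fˣ) : F) := fun h => ha (Units.ext h)
        have h7 : (((χ a : Fˣ) : F) - ((ψ a : Fˣ) : F)) *
            (((χ a : Fˣ) : F) + ((ψ a : Fˣ) : F)) = 0 := by
          linear_combination h4 - h5
        rcases mul_eq_zero.1 h7 with h8 | h8
        · exact absurd (sub_eq_zero.1 h8) h6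
        · linear_combination ((ψ a : Fˣ) : F) * h8 - h5
      have h9 : (2 : F) * f (v χ) (v ψ) = 0 := by
        linear_combination (-1 : F) * h3 + f (v χ) (v ψ) * hc
      rcases mul_eq_zero.1 h9 with h | h
      · exact absurd h h2
      · exact h
  -- the action of the averaging elements on the eigenvectors
  have hsum : ∀ χ ψ : A →* Fˣ, e ψ *ᵥ v χ = if χ = ψ then (Nat.card A : F) • v χ else 0 := by
    intro χ ψ
    have h1 : e ψ *ᵥ v χ = (∑ a : A, ((ψ a : Fˣ) : F) * ((χ a : Fˣ) : F)) • v χ := by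
      show (∑ a : A, ((ψ a : Fˣ) : F) • (ρ a).1) *ᵥ v χ = _
      rw [Matrix.sum_mulVec, Finset.sum_smul]
      apply Finset.sum_congr rfl
      intro a _
      rw [Matrix.smul_mulVec, hvE χ a, smul_smul]
    rw [h1]
    split_ifs with h
    · subst h
      congr 1
      rw [Nat.card_eq_fintype_card, ← Finset.card_univ, Finset.cast_card]
      apply Finset.sum_congr rfl
      intro a _
      exact hval χ a
    · have h3 : ∑ a : A, ((ψ a : Fˣ) : F) * ((χ a : Fˣ) : F) = 0 := by
        have h4 := sum_hom_units_eq_zero ((Units.coeHom F).comp (ψ * χ)) (by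
          intro h5
          apply h
          ext a
          have h6 : ((ψ a : Fˣ) : F) * ((χ a : Fˣ) : F) = 1 := by
            have h7 := congrArg (fun φ : A →* F => φ a) h5
            simpa using h7
          have h8 := hval ψ a
          linear_combination ((ψ a : Fˣ) : F) * h6 - ((χ a : Fˣ) : F) * h8)
        simpa using h4
      rw [h3, zero_smul]
  -- linear independence
  have hcard2 : (Nat.card A : F) ≠ 0 := by
    have hp2 : Fact (Nat.Prime 2) := ⟨Nat.prime_two⟩
    have hpg : IsPGroup 2 A := fun a => ⟨1, by rw [pow_one, pow_two]; exact hsq a⟩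
    obtain ⟨k, hk⟩ := IsPGroup.iff_card.mp hpg
    rw [hk]
    push_cast
    exact pow_ne_zero k h2
  have hli : LinearIndependent F v := by
    rw [Fintype.linearIndependent_iff]
    intro g hg ψ
    have h1 := congrArg (fun w => e ψ *ᵥ w) hg
    simp only [Matrix.mulVec_sum, Matrix.mulVec_smul, Matrix.mulVec_zero] at h1
    rw [Finset.sum_eq_single ψ] at h1
    · rw [hsum ψ ψ, if_pos rfl, smul_smul] at h1
      rcases smul_eq_zero.1 h1 with h | h
      · rcases mul_eq_zero.1 h with h' | h'
        · exact h'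
        · exact absurd h' hcard2
      · exact absurd h (hv0 ψ)
    · intro χ _ hχ
      rw [hsum χ ψ, if_neg hχ, smul_zero]
    · intro h
      exact absurd (Finset.mem_univ _) h
  -- the eigenvectors span
  have hle := hli.fintype_card_le_finrank
  rw [Module.finrank_fin_fun] at hle
  have hcardeq : Fintype.card (A →* Fˣ) = Module.finrank F (Fin n → F) := by
    rw [Module.finrank_fin_fun]
    rw [← Nat.card_eq_fintype_card, hcardX] at hle ⊢
    omega
  have hspan := hli.span_eq_top_of_card_eq_finrank' hcardeq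
  -- the form vanishes
  have hf0 : ∀ w : Fin n → F, f 0 w = 0 := by
    intro w
    have h1 := hf.bilinear.smul_left (0 : F) (0 : Fin n → F) w
    rw [zero_smul, zero_mul] at h1
    exact h1
  have hz1 : ∀ (ψ : A →* Fˣ) (u : Fin n → F), f u (v ψ) = 0 := by
    intro ψ u
    have hu : u ∈ Submodule.span F (Set.range v) := by
      rw [hspan]
      exact Submodule.mem_top
    induction hu using Submodule.span_induction with
    | mem x hx =>
      obtain ⟨χ, rfl⟩ := hx
      exact hperp χ ψ
    | zero => exact hf0 _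
    | add x y _ _ hx hy => rw [hf.bilinear.add_left, hx, hy, add_zero]
    | smul c x _ hx => rw [hf.bilinear.smul_left, hx, mul_zero]
  have hskew : ∀ w : Fin n → F, f w 0 = 0 := by
    intro w
    rw [hf.skew, hf0, neg_zero]
  have hz2 : ∀ u x : Fin n → F, f u x = 0 := by
    intro u x
    have hx' : x ∈ Submodule.span F (Set.range v) := by
      rw [hspan]
      exact Submodule.mem_top
    induction hx' using Submodule.span_induction with
    | mem y hy =>
      obtain ⟨χ, rfl⟩ := hy
      exact hz1 χ _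
    | zero => exact hskew _
    | add y z _ _ hy hz => rw [hf.bilinear.add_right, hy, hz, add_zero]
    | smul c y _ hy => rw [hf.bilinear.smul_right, hy, mul_zero]
  -- contradiction with non-degeneracy
  have hu0 : (Pi.single (⟨0, hn⟩ : Fin n) (1 : F) : Fin n → F) ≠ 0 := by
    intro h
    have h1 := congrFun h ⟨0, hn⟩
    simp at h1
  obtain ⟨x, hx⟩ := (hf.nondegenerate _ hu0).2
  exact hx (hz2 _ _)

variable {n : ℕ} {F : Type*} [Field F] [Fintype F]

/-- PIECE XT-M1 -/
theorem XTM1 (hn : 1 ≤ n) (f : (Fin n → F) → (Fin n → F) → F) (hf : IsSymplecticForm f)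
    (h2 : (2 : F) ≠ 0) (hn0 : (n : F) ≠ 0) (S : Subgroup (GL (Fin n) F))
    (hcomm : ∀ x ∈ S, ∀ y ∈ S, x * y = y * x) (hsq : ∀ x ∈ S, x * x = 1)
    (hfixS : ∀ x ∈ S, ∀ u v, f (x.1 *ᵥ u) (x.1 *ᵥ v) = f u v)
    (htr : ∀ x ∈ S, x ≠ 1 → Matrix.trace x.1 = 0) : Nat.card S < n := by
  classical
  letI cS : CommGroup S :=
    { (inferInstance : Group S) with
      mul_comm := fun a b => Subtype.ext (hcomm a.1 a.2 b.1 b.2) }
  have hfin : Finite S := inferInstance
  exact XTM1_core (A := S) hn f hf h2 hn0 S.subtype (fun a => Subtype.ext (hsq a.1 a.2))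
    (fun a u v => hfixS a.1 a.2 u v) (fun a ha => htr a.1 a.2 (fun h => ha (Subtype.ext h)))

end Cfsg.Agent.Lib.Helper60.SPGXTM1
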