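import Mathlib
import Cfsg.Agent.Lib.Helper18.CTDefs

/-!
# Project CT (S4699, helper18): piece MACK4 (`mackey`)

The relative trace from `N = N_G(P)` to `G` of `t` is `t` plus a conjugation trace: `⟨x⟩` acts
freely on the cosets of `N` other than `N` itself.
-/

set_option autoImplicit false

namespace Cfsg.Agent.Lib.Helper18.CT

variable {G : Type*} [Group G] {F : Type*} [Field F] {V : Type*} [AddCommGroup V] [Module F V]

/-- `Θ (g * m) = Θ g` for `m` commuting with `t`. -/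
theorem mack4_Th_mul_right (ρ : Representation F G V) (t : Module.End F V) (g m : G)
    (hm : ρ m * t = t * ρ m) : Th ρ t (g * m) = Th ρ t g := by
  unfold Th
  have h1 : ρ m * ρ m⁻¹ = 1 := by rw [← map_mul, mul_inv_cancel, map_one]
  rw [mul_inv_rev, map_mul, map_mul]
  calc ρ g * ρ m * t * (ρ m⁻¹ * ρ g⁻¹) = ρ g * (ρ m * t) * ρ m⁻¹ * ρ g⁻¹ := by
        simp only [mul_assoc]
    _ = ρ g * (t * ρ m) * ρ m⁻¹ * ρ g⁻¹ := by rw [hm]
    _ = ρ g * t * (ρ m * ρ m⁻¹) * ρ g⁻¹ := by simp only [mul_assoc]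
    _ = ρ g * t * ρ g⁻¹ := by rw [h1, mul_one]

/-- `Θ (x * g) = ρ x * Θ g * ρ x⁻¹`. -/
theorem mack4_Th_mul_left (ρ : Representation F G V) (t : Module.End F V) (x g : G) :
    Th ρ t (x * g) = ρ x * Th ρ t g * ρ x⁻¹ := by
  unfold Th
  rw [mul_inv_rev, map_mul, map_mul]
  simp only [mul_assoc]

-- piece MACK4
theorem mackey [Finite G] (P : Subgroup G) (x : G) (hxP : x ∈ P) (q : ℕ) (hq : 0 < q)
    (hxq : x ^ q = 1)
    (hfree : ∀ i : ℕ, ∀ g : G, g ∉ Subgroup.normalizer (P : Set G) →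
      g⁻¹ * x ^ i * g ∈ Subgroup.normalizer (P : Set G) → x ^ i = 1)
    (hord : ∀ i : ℕ, 0 < i → i < q → x ^ i ≠ 1)
    (ρ : Representation F G V) (t : Module.End F V)
    (ht : ∀ g ∈ Subgroup.normalizer (P : Set G), ρ g * t = t * ρ g)
    (hsum : ∀ (T : Equiv.Perm (G ⧸ Subgroup.normalizer (P : Set G)))
      (S : Finset (G ⧸ Subgroup.normalizer (P : Set G)))
      (f : G ⧸ Subgroup.normalizer (P : Set G) → Module.End F V) (X Xi : Module.End F V),
      T ^ q = 1 → (∀ c ∈ S, T c ∈ S) → (∀ c ∈ S, ∀ i, 0 < i → i < q → (T ^ i) c ≠ c) →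
      (∀ c, f (T c) = X * f c * Xi) → ∃ φ : Module.End F V, ∑ c ∈ S, f c = trX X Xi q φ) :
    ∃ φ : Module.End F V,
      dN ρ (Subgroup.normalizer (P : Set G)) t = t + trX (ρ x) (ρ x⁻¹) q φ := by
  classical
  have _ := hq
  set N : Subgroup G := Subgroup.normalizer (P : Set G) with hN
  have hxN : x ∈ N := Subgroup.le_normalizer hxP
  have hfin : Fintype (G ⧸ N) := Fintype.ofFinite _
  -- the values of `f` on cosets
  have hf : ∀ g : G, Th ρ t (Quotient.out (QuotientGroup.mk g : G ⧸ N)) = Th ρ t g := by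
    intro g
    obtain ⟨m, hm⟩ := QuotientGroup.mk_out_eq_mul N g
    rw [hm]
    exact mack4_Th_mul_right ρ t g m (ht m m.2)
  -- powers of the permutation
  have hpow : ∀ (i : ℕ) (g : G), ((MulAction.toPerm x : Equiv.Perm (G ⧸ N)) ^ i)
      (QuotientGroup.mk g) = QuotientGroup.mk (x ^ i * g) := by
    intro i
    induction i with
    | zero => intro g; simp
    | succ i ih =>
      intro g
      rw [pow_succ', Equiv.Perm.mul_apply, ih, MulAction.toPerm_apply,
        MulAction.Quotient.smul_mk, smul_eq_mul, pow_succ', mul_assoc]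
  have hmk : ∀ c : G ⧸ N, ∃ g : G, c = QuotientGroup.mk g :=
    fun c => ⟨Quotient.out c, (QuotientGroup.out_eq' c).symm⟩
  have hbase : ∀ g : G, (QuotientGroup.mk g : G ⧸ N) = QuotientGroup.mk (1 : G) ↔ g ∈ N := by
    intro g
    rw [QuotientGroup.eq, mul_one]
    exact N.inv_mem_iff
  have hT : (MulAction.toPerm x : Equiv.Perm (G ⧸ N)) ^ q = 1 := by
    ext c
    obtain ⟨g, rfl⟩ := hmk c
    rw [hpow, hxq, one_mul, Equiv.Perm.one_apply]
  have h1 : ∀ c ∈ (Finset.univ.erase (QuotientGroup.mk (1 : G) : G ⧸ N)),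
      (MulAction.toPerm x : Equiv.Perm (G ⧸ N)) c ∈
        (Finset.univ.erase (QuotientGroup.mk (1 : G) : G ⧸ N)) := by
    intro c hc
    obtain ⟨g, rfl⟩ := hmk c
    rw [Finset.mem_erase] at hc ⊢
    refine ⟨fun h => hc.1 ?_, Finset.mem_univ _⟩
    rw [MulAction.toPerm_apply, MulAction.Quotient.smul_mk, smul_eq_mul, hbase] at h
    rw [hbase]
    have h2 := N.mul_mem (N.inv_mem hxN) h
    rwa [inv_mul_cancel_left] at h2
  have h2 : ∀ c ∈ (Finset.univ.erase (QuotientGroup.mk (1 : G) : G ⧸ N)), ∀ i, 0 < i → i < q →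
      ((MulAction.toPerm x : Equiv.Perm (G ⧸ N)) ^ i) c ≠ c := by
    intro c hc i hi0 hiq h
    obtain ⟨g, rfl⟩ := hmk c
    rw [Finset.mem_erase] at hc
    have hg : g ∉ N := fun hgN => hc.1 ((hbase g).mpr hgN)
    rw [hpow, QuotientGroup.eq] at h
    have h3 : g⁻¹ * x ^ i * g ∈ N := by
      have h4 := N.inv_mem h
      have e : ((x ^ i * g)⁻¹ * g)⁻¹ = g⁻¹ * x ^ i * g := by group
      rwa [e] at h4
    exact hord i hi0 hiq (hfree i g hg h3)
  have h3 : ∀ c : G ⧸ N, Th ρ t (Quotient.out ((MulAction.toPerm x : Equiv.Perm (G ⧸ N)) c)) =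
      ρ x * Th ρ t (Quotient.out c) * ρ x⁻¹ := by
    intro c
    obtain ⟨g, rfl⟩ := hmk c
    rw [MulAction.toPerm_apply, MulAction.Quotient.smul_mk, smul_eq_mul, hf, hf]
    exact mack4_Th_mul_left ρ t x g
  obtain ⟨φ, hφ⟩ := hsum (MulAction.toPerm x) (Finset.univ.erase (QuotientGroup.mk (1 : G)))
    (fun c => Th ρ t (Quotient.out c)) (ρ x) (ρ x⁻¹) hT h1 h2 h3
  refine ⟨φ, ?_⟩
  unfold dN
  rw [finsum_eq_sum_of_fintype,
    ← Finset.add_sum_erase Finset.univ _ (Finset.mem_univ (QuotientGroup.mk (1 : G) : G ⧸ N)),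
    hφ, hf]
  congr 1
  unfold Th
  rw [map_one, inv_one, map_one, one_mul, mul_one]

end Cfsg.Agent.Lib.Helper18.CT
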