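import Mathlib
import Cfsg.Agent.Lib.Helper25.ChevWeylData
import Cfsg.Agent.Lib.Helper24.ChevCardAll

/-!
# S1090 / S2363 (project TF4, helper26), piece TF4-NCARD

`|N| ≤ 1152 (q - 1)^4` for the monomial subgroup `N` of the Chevalley group of type `F₄`:
`N / H` is the Coxeter group of type `F₄` (order `1152`) and `|H| = (q - 1)^4`.
-/

set_option autoImplicit false

namespace Cfsg.Agent.Lib.Helper26.TF4

open Cfsg.Lie Matrix Cfsg.Agent.Lib.Helper24

theorem tf4ncard_card_weyl : Nat.card CoxeterMatrix.F₄.Group = 1152 := by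
  obtain ⟨φ, h1, h2, hcard, h3⟩ := Cfsg.Agent.Lib.Helper25.coxeter_main CoxeterMatrix.F₄
    Cfsg.Agent.Lib.Helper25.f4ML Cfsg.Agent.Lib.Helper25.f4Cart Cfsg.Agent.Lib.Helper25.f4Levels
    (by decide) (by intro i j; fin_cases i <;> fin_cases j <;> rfl) (by decide +kernel)
    (by decide +kernel)
  rw [hcard]
  decide

theorem card_N_le (K : Type*) [Field K] [Fintype K] :
    Nat.card ↥(chevF4.monomialSubgroup K) ≤ 1152 * (Fintype.card K - 1) ^ 4 := by
  obtain ⟨φ, hsurj, hker, -⟩ := Cfsg.Agent.Lib.Helper25.weyl_F4 (F := K)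
  have h1 : Nat.card ↥(chevF4.monomialSubgroup K) =
      Nat.card (↥(chevF4.monomialSubgroup K) ⧸ φ.ker) * Nat.card ↥φ.ker :=
    Subgroup.card_eq_card_quotient_mul_card_subgroup φ.ker
  have h2 : Nat.card (↥(chevF4.monomialSubgroup K) ⧸ φ.ker) = 1152 := by
    rw [Nat.card_congr (QuotientGroup.quotientKerEquivOfSurjective φ hsurj).toEquiv]
    exact tf4ncard_card_weyl
  have h3 : Nat.card ↥φ.ker ≤ (Fintype.card K - 1) ^ 4 := by
    rw [hker]
    have h4 : Nat.card ↥((chevF4.diagonalSubgroup K).subgroupOf (chevF4.monomialSubgroup K)) ≤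
        Nat.card ↥(chevF4.diagonalSubgroup K) := by
      apply Nat.card_le_card_of_injective
        (fun x : ↥((chevF4.diagonalSubgroup K).subgroupOf (chevF4.monomialSubgroup K)) =>
          (⟨x.1.1, x.2⟩ : ↥(chevF4.diagonalSubgroup K)))
      intro x y hxy
      have h7 : (x.1.1 : GL chevF4.Idx K) = y.1.1 := by
        have h8 := congrArg (fun z : ↥(chevF4.diagonalSubgroup K) => (z : GL chevF4.Idx K)) hxy
        exact h8
      exact Subtype.ext (Subtype.ext h7)
    have h5 : Nat.card ↥(chevF4.diagonalSubgroup K) = (Fintype.card K - 1) ^ 4 := by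
      have h := card_diagonal_F4 (F := K)
      rw [one_mul] at h
      exact h
    exact h4.trans h5.le
  rw [h1, h2]
  exact Nat.mul_le_mul_left _ h3

end Cfsg.Agent.Lib.Helper26.TF4
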