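import Mathlib
import Cfsg.Prelude.Def_GeometricClasses
import Cfsg.Prelude.Def_LieClassical
import Cfsg.Agent.Lib.Helper71.Asch0
import Cfsg.Agent.Lib.Helper40.SPPTF

/-!
# Project SUQ (helper50), piece TF (helper60)

The hermitian form fixed by `L = P (R ⊗ 1) P⁻¹`, `R` absolutely irreducible, has Gram matrix
`G₁ ⊗ G₂` with both factors hermitian.  Hermitian twin of `Helper40/SPPTF.lean`.
-/

set_option autoImplicit false

namespace Cfsg.Agent.Lib.Helper60.SUQTF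

open Matrix Cfsg.Geo Cfsg.Agent.Lib.Helper71.Asch Cfsg.Agent.Lib.Helper40.SPPTF
open scoped Kronecker

variable {n : ℕ} {F : Type*} [Field F] [Fintype F] {q : ℕ}

/-- The map `x ↦ x ^ q` as an involutive ring homomorphism. -/
theorem tf_frob (hF : Fintype.card F = q ^ 2) :
    ∃ φ : F →+* F, (∀ x, φ x = x ^ q) ∧ ∀ x, φ (φ x) = x := by
  obtain ⟨p, hp⟩ := CharP.exists F
  obtain ⟨m, hpp, hcard⟩ := FiniteField.card F p
  have hq : q ∣ p ^ (m : ℕ) := by
    rw [← hcard, hF]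
    exact dvd_pow_self q two_ne_zero
  obtain ⟨j, -, hj⟩ := (Nat.dvd_prime_pow hpp).mp hq
  have : ExpChar F p := ExpChar.prime hpp
  refine ⟨iterateFrobenius F p j, fun x => ?_, fun x => ?_⟩
  · rw [iterateFrobenius_def, hj]
  · rw [iterateFrobenius_def, iterateFrobenius_def, ← hj, ← pow_mul, ← sq, ← hF,
      FiniteField.pow_card]

/-- Some element is moved by `x ↦ x ^ q`. -/
theorem tf_exists_moved (hF : Fintype.card F = q ^ 2) : ∃ ν : F, ν ^ q ≠ ν := by
  classical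
  by_contra hcon
  push Not at hcon
  have hq1 : 1 < q := by
    have h1 : 1 < Fintype.card F := Fintype.one_lt_card
    rw [hF] at h1
    by_contra h2
    have h3 : q ≤ 1 := by omega
    have h4 : q ^ 2 ≤ 1 := by
      calc q ^ 2 ≤ 1 ^ 2 := Nat.pow_le_pow_left h3 2
        _ = 1 := one_pow 2
    omega
  have hne : (Polynomial.X ^ q - Polynomial.X : Polynomial F) ≠ 0 :=
    FiniteField.X_pow_card_sub_X_ne_zero F hq1
  have hsub : (Finset.univ : Finset F).val ⊆ (Polynomial.X ^ q - Polynomial.X : Polynomial F).roots := by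
    intro x _
    rw [Polynomial.mem_roots hne, Polynomial.IsRoot, Polynomial.eval_sub, Polynomial.eval_pow,
      Polynomial.eval_X, hcon x, sub_self]
  have h5 := Polynomial.card_le_degree_of_subset_roots hsub
  rw [FiniteField.X_pow_card_sub_X_natDegree_eq F hq1, Finset.card_univ, hF] at h5
  have h6 : q * 2 ≤ q * q := Nat.mul_le_mul_left q hq1
  have h7 : q ^ 2 = q * q := sq q
  omega

omit [Fintype F] in
/-- Hilbert 90 for the involution `φ`: a norm-one element is `μ / φ μ`. -/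
theorem tf_hilbert (φ : F →+* F) (hφφ : ∀ x, φ (φ x) = x) (hmv : ∃ ν : F, φ ν ≠ ν) (κ : F)
    (hκ : κ * φ κ = 1) : ∃ μ : F, μ ≠ 0 ∧ μ = κ * φ μ := by
  by_cases h1 : κ + 1 = 0
  · obtain ⟨ν, hν⟩ := hmv
    have hκ1 : κ = -1 := by linear_combination h1
    refine ⟨ν - φ ν, ?_, ?_⟩
    · intro h0
      exact hν (sub_eq_zero.mp h0).symm
    · rw [hκ1, map_sub, hφφ]
      ring
  · refine ⟨κ + 1, h1, ?_⟩
    rw [map_add, map_one, mul_add, hκ, mul_one, add_comm]

omit [Fintype F] in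
theorem tf_frob_mulVec {ι : Type} [Fintype ι] (φ : F →+* F) (hφφ : ∀ x, φ (φ x) = x)
    (A : Matrix ι ι F) (v : ι → F) : φ ∘ (A.map φ *ᵥ v) = A *ᵥ (φ ∘ v) := by
  funext i
  simp only [Function.comp_apply, Matrix.mulVec, dotProduct, Matrix.map_apply, map_sum, map_mul,
    hφφ]

omit [Fintype F] in
theorem tf_ten_frob {d k : ℕ} (φ : F →+* F) (u : Fin d → F) (a : Fin k) :
    φ ∘ ten u a = ten (φ ∘ u) a := by
  funext p
  unfold ten
  by_cases h : p.2 = a <;> simp [h]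

/-- The matrix `B` is the Gram matrix of an `R`-invariant `φ`-sesquilinear form. -/
def InvH {d : ℕ} (φ : F →+* F) (R : Subgroup (GL (Fin d) F)) (B : Matrix (Fin d) (Fin d) F) :
    Prop :=
  ∀ y ∈ R, y.1ᵀ * B * y.1.map φ = B

omit [Fintype F] in
theorem tf_inv_map_mul {d : ℕ} (φ : F →+* F) (y : GL (Fin d) F) :
    ((y⁻¹ : GL (Fin d) F).1.map φ)ᵀ * (y.1.map φ)ᵀ = 1 := by
  rw [← Matrix.transpose_mul, ← Matrix.map_mul, ← Units.val_mul, mul_inv_cancel, Units.val_one,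
    Matrix.map_one _ (map_zero φ) (map_one φ), Matrix.transpose_one]

omit [Fintype F] in
/-- A non-zero invariant matrix of an irreducible group is invertible. -/
theorem tf_inv_det {d : ℕ} (φ : F →+* F) (R : Subgroup (GL (Fin d) F))
    (hR : ActsIrreducibly (matrixSet R))
    (B : Matrix (Fin d) (Fin d) F) (hB : InvH φ R B) (h0 : B ≠ 0) : B.det ≠ 0 := by
  intro hdet
  have hdet' : Bᵀ.det = 0 := by rw [Matrix.det_transpose]; exact hdet
  let W : Submodule F (Fin d → F) := LinearMap.ker (Matrix.toLin' Bᵀ)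
  have hW : ∀ s ∈ matrixSet R, W.map (Matrix.toLin' s) ≤ W := by
    rintro _ ⟨y, hy, rfl⟩ v hv
    obtain ⟨u, hu, rfl⟩ := hv
    have hu' : Bᵀ *ᵥ u = 0 := by
      have := LinearMap.mem_ker.1 hu
      rwa [Matrix.toLin'_apply] at this
    have hBt : (y.1.map φ)ᵀ * Bᵀ * y.1 = Bᵀ := by
      have h7 := congrArg Matrix.transpose (hB y hy)
      rw [Matrix.transpose_mul, Matrix.transpose_mul, Matrix.transpose_transpose] at h7
      rw [Matrix.mul_assoc]
      exact h7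
    have h1 : (y.1.map φ)ᵀ *ᵥ (Bᵀ *ᵥ (y.1 *ᵥ u)) = 0 := by
      rw [Matrix.mulVec_mulVec, Matrix.mulVec_mulVec, hBt, hu']
    have h2 := congrArg (fun w => ((y⁻¹ : GL (Fin d) F).1.map φ)ᵀ *ᵥ w) h1
    simp only [Matrix.mulVec_zero] at h2
    rw [Matrix.mulVec_mulVec, tf_inv_map_mul, Matrix.one_mulVec] at h2
    show Matrix.toLin' y.1 u ∈ LinearMap.ker (Matrix.toLin' Bᵀ)
    rw [LinearMap.mem_ker, Matrix.toLin'_apply, Matrix.toLin'_apply]
    exact h2
  rcases hR W hW with h | h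
  · obtain ⟨v, hv0, hv⟩ := Matrix.exists_mulVec_eq_zero_iff.mpr hdet'
    have hvW : v ∈ W := by
      show v ∈ LinearMap.ker (Matrix.toLin' Bᵀ)
      rw [LinearMap.mem_ker, Matrix.toLin'_apply]
      exact hv
    rw [h] at hvW
    exact hv0 ((Submodule.mem_bot F).1 hvW)
  · apply h0
    ext i j
    have hjW : (Pi.single i 1 : Fin d → F) ∈ W := by
      rw [h]
      exact Submodule.mem_top
    have hj : Bᵀ *ᵥ (Pi.single i 1) = 0 := by
      have := LinearMap.mem_ker.1 hjW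
      rwa [Matrix.toLin'_apply] at this
    have := congrFun hj j
    simpa [Matrix.mulVec_single_one] using this

omit [Fintype F] in
/-- Schur: two invariant matrices of an absolutely irreducible group, the first invertible, are
proportional. -/
theorem tf_inv_smul {d : ℕ} (φ : F →+* F) (hφφ : ∀ x, φ (φ x) = x)
    (R : Subgroup (GL (Fin d) F))
    (hRa : ActsAbsolutelyIrreducibly (matrixSet R)) (B B' : Matrix (Fin d) (Fin d) F)
    (hB : InvH φ R B) (hB' : InvH φ R B') (hdet : B.det ≠ 0) : ∃ c : F, B' = c • B := by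
  have hBu : IsUnit B.det := isUnit_iff_ne_zero.2 hdet
  have key : ∀ y ∈ R, (B⁻¹ * B') * y.1.map φ = y.1.map φ * (B⁻¹ * B') := by
    intro y hy
    have h2 := inv_tr_mul y
    have e1 : B * y.1.map φ = (y⁻¹ : GL (Fin d) F).1ᵀ * B := by
      calc B * y.1.map φ = ((y⁻¹ : GL (Fin d) F).1ᵀ * y.1ᵀ) * (B * y.1.map φ) := by
            rw [h2, Matrix.one_mul]
        _ = (y⁻¹ : GL (Fin d) F).1ᵀ * (y.1ᵀ * B * y.1.map φ) := by simp only [Matrix.mul_assoc]
        _ = (y⁻¹ : GL (Fin d) F).1ᵀ * B := by rw [hB y hy]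
    have e2 : B' * y.1.map φ = (y⁻¹ : GL (Fin d) F).1ᵀ * B' := by
      calc B' * y.1.map φ = ((y⁻¹ : GL (Fin d) F).1ᵀ * y.1ᵀ) * (B' * y.1.map φ) := by
            rw [h2, Matrix.one_mul]
        _ = (y⁻¹ : GL (Fin d) F).1ᵀ * (y.1ᵀ * B' * y.1.map φ) := by simp only [Matrix.mul_assoc]
        _ = (y⁻¹ : GL (Fin d) F).1ᵀ * B' := by rw [hB' y hy]
    have h3 : B * ((B⁻¹ * B') * y.1.map φ) = B * (y.1.map φ * (B⁻¹ * B')) := by
      calc B * ((B⁻¹ * B') * y.1.map φ) = (B * B⁻¹) * (B' * y.1.map φ) := by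
            simp only [Matrix.mul_assoc]
        _ = (y⁻¹ : GL (Fin d) F).1ᵀ * B' := by
            rw [Matrix.mul_nonsing_inv _ hBu, Matrix.one_mul, e2]
        _ = (y⁻¹ : GL (Fin d) F).1ᵀ * (B * B⁻¹) * B' := by
            rw [Matrix.mul_nonsing_inv _ hBu, Matrix.mul_one]
        _ = ((y⁻¹ : GL (Fin d) F).1ᵀ * B) * (B⁻¹ * B') := by simp only [Matrix.mul_assoc]
        _ = (B * y.1.map φ) * (B⁻¹ * B') := by rw [e1]
        _ = B * (y.1.map φ * (B⁻¹ * B')) := by simp only [Matrix.mul_assoc]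
    have h4 := congrArg (fun X => B⁻¹ * X) h3
    rw [← Matrix.mul_assoc, ← Matrix.mul_assoc B⁻¹ B (y.1.map φ * (B⁻¹ * B')),
      Matrix.nonsing_inv_mul _ hBu, Matrix.one_mul, Matrix.one_mul] at h4
    exact h4
  have hmm : ∀ X : Matrix (Fin d) (Fin d) F, (X.map φ).map φ = X := by
    intro X
    ext i j
    simp only [Matrix.map_apply, hφφ]
  have key2 : ∀ s ∈ matrixSet R, ((B⁻¹ * B').map φ) * s = s * ((B⁻¹ * B').map φ) := by
    rintro _ ⟨y, hy, rfl⟩
    have h5 : ((B⁻¹ * B') * y.1.map φ).map φ = (y.1.map φ * (B⁻¹ * B')).map φ :=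
      congrArg (fun X : Matrix (Fin d) (Fin d) F => X.map φ) (key y hy)
    simp only [Matrix.map_mul, hmm] at h5
    show ((B⁻¹ * B').map φ) * y.1 = y.1 * ((B⁻¹ * B').map φ)
    rw [Matrix.map_mul]
    exact h5
  obtain ⟨c, hc⟩ := hRa.2 _ key2
  have hC : B⁻¹ * B' = φ c • (1 : Matrix (Fin d) (Fin d) F) := by
    have h6 := congrArg (fun X : Matrix (Fin d) (Fin d) F => X.map φ) hc
    simp only [hmm] at h6
    rw [h6]
    ext i j
    by_cases hij : i = j
    · subst hij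
      simp
    · simp [hij]
  refine ⟨φ c, ?_⟩
  calc B' = B * (B⁻¹ * B') := by
        rw [← Matrix.mul_assoc, Matrix.mul_nonsing_inv _ hBu, Matrix.one_mul]
    _ = B * (φ c • (1 : Matrix (Fin d) (Fin d) F)) := by rw [hC]
    _ = φ c • B := by rw [Matrix.mul_smul, Matrix.mul_one]

/-- TF: the hermitian form, fixed by `L = P (R ⊗ 1) P⁻¹` with `R` absolutely irreducible, is a
tensor product of two hermitian Gram matrices. -/
theorem TF (hF : Fintype.card F = q ^ 2) {d k : ℕ}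
    (e : Fin n ≃ Fin d × Fin k) (P : GL (Fin n) F) (R : Subgroup (GL (Fin d) F))
    (L : Subgroup (GL (Fin n) F)) (hL : L ≤ Cfsg.GU n F q)
    (hRa : ActsAbsolutelyIrreducibly (matrixSet R))
    (h1 : ∀ x ∈ L, ∃ y ∈ R, x.1 = tmat e P y.1 1) (h2 : ∀ y ∈ R, ∃ x ∈ L, x.1 = tmat e P y.1 1) :
    ∃ (G₁ : Matrix (Fin d) (Fin d) F) (G₂ : Matrix (Fin k) (Fin k) F), G₁.det ≠ 0 ∧ G₂.det ≠ 0 ∧
      (∀ a b, G₁ a b = (G₁ b a) ^ q) ∧ (∀ a b, G₂ a b = (G₂ b a) ^ q) ∧
      ∀ x y : Fin d × Fin k → F,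
        Cfsg.hermForm n F q (P.1 *ᵥ (x ∘ e)) (P.1 *ᵥ (y ∘ e)) =
          formOfGram (fun c : F => c ^ q) (G₁ ⊗ₖ G₂) x y := by
  classical
  obtain ⟨φ, hφ, hφφ⟩ := tf_frob hF
  have hq0 : q ≠ 0 := by
    intro h0
    have h3 : 0 < Fintype.card F := Fintype.card_pos
    rw [hF, h0] at h3
    simp at h3
  rcases Nat.eq_zero_or_pos d with hd0 | hdpos
  · -- `d = 0`
    subst hd0
    have : IsEmpty (Fin n) := e.isEmpty
    refine ⟨0, 1, by simp, by simp, fun a => a.elim0, fun a b => ?_, fun x y => ?_⟩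
    · by_cases hab : a = b
      · subst hab
        simp
      · rw [Matrix.one_apply_ne hab, Matrix.one_apply_ne (Ne.symm hab), zero_pow hq0]
    · unfold Cfsg.hermForm formOfGram
      simp
  rcases Nat.eq_zero_or_pos k with hk0 | hkpos
  · -- `k = 0`
    subst hk0
    have : IsEmpty (Fin n) := e.isEmpty
    refine ⟨1, 0, by simp, by simp, fun a b => ?_, fun a => a.elim0, fun x y => ?_⟩
    · by_cases hab : a = b
      · subst hab
        simp
      · rw [Matrix.one_apply_ne hab, Matrix.one_apply_ne (Ne.symm hab), zero_pow hq0]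
    · unfold Cfsg.hermForm formOfGram
      simp
  -- the hermitian form as a dot product
  have hh : ∀ u v : Fin n → F, Cfsg.hermForm n F q u v = u ⬝ᵥ (φ ∘ v) := by
    intro u v
    unfold Cfsg.hermForm dotProduct
    refine Finset.sum_congr rfl fun i _ => ?_
    rw [Function.comp_apply, hφ]
  have hh_symm : ∀ u v : Fin n → F, Cfsg.hermForm n F q v u = φ (Cfsg.hermForm n F q u v) := by
    intro u v
    rw [hh, hh]
    simp only [dotProduct, Function.comp_apply, map_sum, map_mul, hφφ]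
    refine Finset.sum_congr rfl fun i _ => ?_
    rw [mul_comm]
  -- the sesquilinear form on `Fin d × Fin k → F`
  set β : (Fin d × Fin k → F) → (Fin d × Fin k → F) → F :=
    fun x y => Cfsg.hermForm n F q (P.1 *ᵥ (x ∘ e)) (P.1 *ᵥ (y ∘ e)) with hβ
  have hβ_symm : ∀ x y, β y x = φ (β x y) := fun x y => hh_symm _ _
  -- its bilinear twist
  set β' : (Fin d × Fin k → F) → (Fin d × Fin k → F) → F :=
    fun x y => β x (φ ∘ y) with hβ'
  have hφcomp : ∀ y : Fin d × Fin k → F, φ ∘ (φ ∘ y) = y := by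
    intro y
    funext p
    simp only [Function.comp_apply, hφφ]
  have hββ' : ∀ x y, β x y = β' x (φ ∘ y) := by
    intro x y
    show β x y = β x (φ ∘ (φ ∘ y))
    rw [hφcomp]
  have hβ'b : IsBilinearForm β' := by
    refine ⟨fun x y v => ?_, fun c x v => ?_, fun v x y => ?_, fun c v x => ?_⟩
    · show Cfsg.hermForm n F q (P.1 *ᵥ ((x + y) ∘ e)) _ =
        Cfsg.hermForm n F q (P.1 *ᵥ (x ∘ e)) _ + Cfsg.hermForm n F q (P.1 *ᵥ (y ∘ e)) _
      rw [show (x + y) ∘ e = x ∘ e + y ∘ e from rfl, Matrix.mulVec_add, hh, hh, hh,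
        add_dotProduct]
    · show Cfsg.hermForm n F q (P.1 *ᵥ ((c • x) ∘ e)) _ =
        c * Cfsg.hermForm n F q (P.1 *ᵥ (x ∘ e)) _
      rw [show (c • x) ∘ e = c • (x ∘ e) from rfl, Matrix.mulVec_smul, hh, hh, smul_dotProduct,
        smul_eq_mul]
    · show Cfsg.hermForm n F q _ (P.1 *ᵥ ((φ ∘ (x + y)) ∘ e)) =
        Cfsg.hermForm n F q _ (P.1 *ᵥ ((φ ∘ x) ∘ e)) + Cfsg.hermForm n F q _ (P.1 *ᵥ ((φ ∘ y) ∘ e))
      have e1 : (φ ∘ (x + y)) ∘ e = (φ ∘ x) ∘ e + (φ ∘ y) ∘ e := by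
        funext i
        simp only [Function.comp_apply, Pi.add_apply, map_add]
      rw [e1, Matrix.mulVec_add, hh, hh, hh]
      have e2 : φ ∘ (P.1 *ᵥ ((φ ∘ x) ∘ e) + P.1 *ᵥ ((φ ∘ y) ∘ e)) =
          φ ∘ (P.1 *ᵥ ((φ ∘ x) ∘ e)) + φ ∘ (P.1 *ᵥ ((φ ∘ y) ∘ e)) := by
        funext i
        simp only [Function.comp_apply, Pi.add_apply, map_add]
      rw [e2, dotProduct_add]
    · show Cfsg.hermForm n F q _ (P.1 *ᵥ ((φ ∘ (c • x)) ∘ e)) =
        c * Cfsg.hermForm n F q _ (P.1 *ᵥ ((φ ∘ x) ∘ e))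
      have e1 : (φ ∘ (c • x)) ∘ e = φ c • ((φ ∘ x) ∘ e) := by
        funext i
        simp only [Function.comp_apply, Pi.smul_apply, smul_eq_mul, map_mul]
      rw [e1, Matrix.mulVec_smul, hh, hh]
      have e2 : φ ∘ (φ c • (P.1 *ᵥ ((φ ∘ x) ∘ e))) = c • (φ ∘ (P.1 *ᵥ ((φ ∘ x) ∘ e))) := by
        funext i
        simp only [Function.comp_apply, Pi.smul_apply, smul_eq_mul, map_mul, hφφ]
      rw [e2, dotProduct_smul, smul_eq_mul]
  have hPinv : (P⁻¹ : GL (Fin n) F).1 * P.1 = 1 := by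
    rw [← Units.val_mul, inv_mul_cancel, Units.val_one]
  have hPinv' : P.1 * (P⁻¹ : GL (Fin n) F).1 = 1 := by
    rw [← Units.val_mul, mul_inv_cancel, Units.val_one]
  -- non-degeneracy
  have hβ'nd : ∀ v : Fin d × Fin k → F, v ≠ 0 → ∃ x, β' x v ≠ 0 := by
    intro v hv
    have hPv : P.1 *ᵥ ((φ ∘ v) ∘ e) ≠ 0 := by
      intro h0
      have h3 := congrArg (fun w => (P⁻¹ : GL (Fin n) F).1 *ᵥ w) h0
      simp only [Matrix.mulVec_zero] at h3
      rw [Matrix.mulVec_mulVec, hPinv, Matrix.one_mulVec] at h3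
      apply hv
      funext p
      have h4 := congrFun h3 (e.symm p)
      simp only [Function.comp_apply, Equiv.apply_symm_apply, Pi.zero_apply] at h4
      have h5 := congrArg φ h4
      rw [hφφ, map_zero] at h5
      exact h5
    obtain ⟨i, hi⟩ := Function.ne_iff.mp hPv
    rw [Pi.zero_apply] at hi
    refine ⟨((P⁻¹ : GL (Fin n) F).1 *ᵥ (Pi.single i 1)) ∘ e.symm, ?_⟩
    show Cfsg.hermForm n F q (P.1 *ᵥ ((((P⁻¹ : GL (Fin n) F).1 *ᵥ (Pi.single i 1)) ∘ e.symm) ∘ e))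
      (P.1 *ᵥ ((φ ∘ v) ∘ e)) ≠ 0
    have h4 : (((P⁻¹ : GL (Fin n) F).1 *ᵥ (Pi.single i 1)) ∘ e.symm) ∘ e =
        (P⁻¹ : GL (Fin n) F).1 *ᵥ (Pi.single i 1) := by
      funext i'
      simp
    rw [h4, Matrix.mulVec_mulVec, hPinv', Matrix.one_mulVec, hh, single_dotProduct, one_mul,
      Function.comp_apply]
    intro h0
    have h5 := congrArg φ h0
    rw [hφφ, map_zero] at h5
    exact hi h5
  -- invariance
  have hinv : ∀ y ∈ R, ∀ x x' : Fin d × Fin k → F,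
      β ((y.1 ⊗ₖ (1 : Matrix (Fin k) (Fin k) F)) *ᵥ x)
        ((y.1 ⊗ₖ (1 : Matrix (Fin k) (Fin k) F)) *ᵥ x') = β x x' := by
    intro y hy x x'
    obtain ⟨g, hg, hgy⟩ := h2 y hy
    have h5 := hL hg (P.1 *ᵥ (x ∘ e)) (P.1 *ᵥ (x' ∘ e))
    have h6 : ∀ w : Fin n → F, (Units.coeHom (Matrix (Fin n) (Fin n) F)) g *ᵥ w =
        tmat e P y.1 1 *ᵥ w := by
      intro w
      rw [← hgy]
      rfl
    rw [h6, h6, tmat_mulVec, tmat_mulVec] at h5
    exact h5
  -- the blocks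
  set γ : Fin k → Fin k → (Fin d → F) → (Fin d → F) → F :=
    fun a b u u' => β' (ten u a) (ten u' b) with hγ
  have hγb : ∀ a b, IsBilinearForm (γ a b) := by
    intro a b
    refine ⟨fun x y v => ?_, fun c x v => ?_, fun v x y => ?_, fun c v x => ?_⟩
    · show β' (ten (x + y) a) _ = β' (ten x a) _ + β' (ten y a) _
      rw [ten_add, hβ'b.add_left]
    · show β' (ten (c • x) a) _ = c * β' (ten x a) _
      rw [ten_smul, hβ'b.smul_left]
    · show β' _ (ten (x + y) b) = β' _ (ten x b) + β' _ (ten y b)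
      rw [ten_add, hβ'b.add_right]
    · show β' _ (ten (c • x) b) = c * β' _ (ten x b)
      rw [ten_smul, hβ'b.smul_right]
  choose G hG hG' using fun a b => gram_rep (γ a b) (hγb a b)
  have hGinv : ∀ a b, InvH φ R (G a b) := by
    intro a b y hy
    apply mat_ext
    intro u v
    have h6 : u ⬝ᵥ ((y.1ᵀ * G a b * y.1.map φ) *ᵥ v) =
        (y.1 *ᵥ u) ⬝ᵥ (G a b *ᵥ (y.1.map φ *ᵥ v)) := by
      rw [← Matrix.mulVec_mulVec, ← Matrix.mulVec_mulVec, Matrix.dotProduct_mulVec,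
        Matrix.vecMul_transpose]
    rw [h6, ← hG, ← hG]
    show β (ten (y.1 *ᵥ u) a) (φ ∘ ten (y.1.map φ *ᵥ v) b) = β (ten u a) (φ ∘ ten v b)
    rw [tf_ten_frob, tf_ten_frob, tf_frob_mulVec φ hφφ, ← kron_ten, ← kron_ten]
    exact hinv y hy _ _
  obtain ⟨J, hJ, hJ'⟩ := gram_rep β' hβ'b
  have hJG : ∀ p p' : Fin d × Fin k, J p p' = G p.2 p'.2 p.1 p'.1 := by
    intro p p'
    rw [hJ', hG']
    show _ = β' (ten (Pi.single p.1 1) p.2) (ten (Pi.single p'.1 1) p'.2)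
    rw [ten_single, ten_single]
  -- a non-zero block
  have hex : ∃ a₀ b₀, G a₀ b₀ ≠ 0 := by
    by_contra hcon
    push Not at hcon
    have hJ0 : J = 0 := by
      ext p p'
      rw [hJG, hcon]
      rfl
    have hv : (Pi.single ((⟨0, hdpos⟩ : Fin d), (⟨0, hkpos⟩ : Fin k)) (1 : F) :
        Fin d × Fin k → F) ≠ 0 := by
      intro h0
      have := congrFun h0 ((⟨0, hdpos⟩ : Fin d), (⟨0, hkpos⟩ : Fin k))
      simp at this
    obtain ⟨x, hx⟩ := hβ'nd _ hv
    apply hx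
    rw [hJ, hJ0, Matrix.zero_mulVec, dotProduct_zero]
  obtain ⟨a₀, b₀, hne⟩ := hex
  set G₁ : Matrix (Fin d) (Fin d) F := G a₀ b₀ with hG₁
  have hdet₁ : G₁.det ≠ 0 := tf_inv_det φ R hRa.1 G₁ (hGinv a₀ b₀) hne
  choose M hM using fun a b => tf_inv_smul φ hφφ R hRa G₁ (G a b) (hGinv a₀ b₀) (hGinv a b) hdet₁
  set G₂ : Matrix (Fin k) (Fin k) F := fun a b => M a b with hG₂
  have hJK : J = G₁ ⊗ₖ G₂ := by
    ext ⟨i, a⟩ ⟨j, b⟩
    rw [hJG, hM, Matrix.smul_apply, Matrix.kroneckerMap_apply, smul_eq_mul, mul_comm]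
  have hJdet : J.det ≠ 0 := by
    intro h0
    obtain ⟨v, hv0, hv⟩ := Matrix.exists_mulVec_eq_zero_iff.mpr h0
    obtain ⟨x, hx⟩ := hβ'nd v hv0
    apply hx
    rw [hJ, hv, dotProduct_zero]
  have hdet₂ : G₂.det ≠ 0 := by
    intro h0
    apply hJdet
    rw [hJK, Matrix.det_kronecker, h0, zero_pow (by rw [Fintype.card_fin]; omega), mul_zero]
  have hJe : ∀ i a j b, J (i, a) (j, b) = G₁ i j * G₂ a b := by
    intro i a j b
    rw [hJK, Matrix.kroneckerMap_apply]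
  -- `J` is hermitian
  have hsingle : ∀ p : Fin d × Fin k, φ ∘ (Pi.single p (1 : F) : Fin d × Fin k → F) =
      Pi.single p 1 := by
    intro p
    funext p'
    by_cases hp : p' = p
    · subst hp
      simp
    · simp [hp]
  have hJherm : ∀ p p', J p' p = φ (J p p') := by
    intro p p'
    rw [hJ', hJ']
    show β (Pi.single p' 1) (φ ∘ Pi.single p 1) = φ (β (Pi.single p 1) (φ ∘ Pi.single p' 1))
    rw [hsingle, hsingle]
    exact hβ_symm _ _
  -- the identity before rescaling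
  have hid0 : ∀ x y : Fin d × Fin k → F, β x y = ∑ a, ∑ b, x a * J a b * φ (y b) := by
    intro x y
    rw [hββ', hJ]
    simp only [dotProduct, Matrix.mulVec, Finset.mul_sum, Function.comp_apply, mul_assoc]
  -- the twist of `G₁`
  obtain ⟨a₁, b₁, hab₁⟩ : ∃ a b, G₂ a b ≠ 0 := by
    by_contra hcon
    push Not at hcon
    apply hdet₂
    have h0 : G₂ = 0 := Matrix.ext hcon
    rw [h0]
    have hne0 : Nonempty (Fin k) := ⟨⟨0, hkpos⟩⟩
    exact Matrix.det_zero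
  obtain ⟨i₀, j₀, hij⟩ : ∃ i j, G₁ i j ≠ 0 := by
    by_contra hcon
    push Not at hcon
    exact hne (Matrix.ext hcon)
  have hφne : ∀ x : F, x ≠ 0 → φ x ≠ 0 := by
    intro x hx h0
    have h5 := congrArg φ h0
    rw [hφφ, map_zero] at h5
    exact hx h5
  set κ : F := G₂ b₁ a₁ / φ (G₂ a₁ b₁) with hκ
  have hR1 : ∀ i j, φ (G₁ i j) = κ * G₁ j i := by
    intro i j
    have h3 := hJherm (i, a₁) (j, b₁)
    rw [hJe, hJe, map_mul] at h3
    rw [hκ]
    field_simp [hφne _ hab₁]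
    linear_combination -h3
  have hκκ : κ * φ κ = 1 := by
    have h3 := hR1 i₀ j₀
    have h4 := congrArg φ h3
    rw [hφφ, map_mul, hR1 j₀ i₀] at h4
    have h5 : (κ * φ κ - 1) * G₁ i₀ j₀ = 0 := by linear_combination -h4
    rcases mul_eq_zero.1 h5 with h | h
    · linear_combination h
    · exact absurd h hij
  obtain ⟨ν, hν⟩ := tf_exists_moved hF
  obtain ⟨μ, hμ0, hμ⟩ := tf_hilbert φ hφφ ⟨ν, by rw [hφ]; exact hν⟩ κ hκκ
  -- the rescaled matrices
  have hherm₁ : ∀ a b, (μ • G₁) a b = φ ((μ • G₁) b a) := by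
    intro a b
    rw [Matrix.smul_apply, Matrix.smul_apply, smul_eq_mul, smul_eq_mul, map_mul, hR1 b a]
    linear_combination (G₁ a b) * hμ
  have hherm₂ : ∀ a b, (μ⁻¹ • G₂) a b = φ ((μ⁻¹ • G₂) b a) := by
    intro a b
    have h3 := hJherm (j₀, b) (i₀, a)
    rw [hJe, hJe, map_mul] at h3
    have h4 := hherm₁ i₀ j₀
    rw [Matrix.smul_apply, Matrix.smul_apply, smul_eq_mul, smul_eq_mul, map_mul] at h4
    rw [Matrix.smul_apply, Matrix.smul_apply, smul_eq_mul, smul_eq_mul, map_mul, map_inv₀]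
    have hφμ : φ μ ≠ 0 := hφne μ hμ0
    field_simp
    have h5 : G₁ i₀ j₀ * (φ μ * G₂ a b - μ * φ (G₂ b a)) = 0 := by
      linear_combination (φ μ) * h3 - (φ (G₂ b a)) * h4
    rcases mul_eq_zero.1 h5 with h | h
    · exact absurd h hij
    · linear_combination h
  have hkron : (μ • G₁) ⊗ₖ (μ⁻¹ • G₂) = G₁ ⊗ₖ G₂ := by
    ext ⟨i, a⟩ ⟨j, b⟩
    rw [Matrix.kroneckerMap_apply, Matrix.kroneckerMap_apply, Matrix.smul_apply,
      Matrix.smul_apply, smul_eq_mul, smul_eq_mul]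
    field_simp
  refine ⟨μ • G₁, μ⁻¹ • G₂, ?_, ?_, ?_, ?_, ?_⟩
  · rw [Matrix.det_smul]
    exact mul_ne_zero (pow_ne_zero _ hμ0) hdet₁
  · rw [Matrix.det_smul]
    exact mul_ne_zero (pow_ne_zero _ (inv_ne_zero hμ0)) hdet₂
  · intro a b
    rw [← hφ]
    exact hherm₁ a b
  · intro a b
    rw [← hφ]
    exact hherm₂ a b
  · intro x y
    show β x y = _
    rw [hkron, ← hJK, hid0]
    unfold formOfGram
    refine Finset.sum_congr rfl fun a _ => Finset.sum_congr rfl fun b _ => ?_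
    rw [hφ]

end Cfsg.Agent.Lib.Helper60.SUQTF
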