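import Mathlib
import Cfsg.Prelude.Def_GeometricClasses

/-!
# S5981 (project OQ, helper96), piece OQ-DIAGFORM

A nondegenerate quadratic form in odd characteristic is diagonalisable with nonzero weights.
-/

set_option autoImplicit false

namespace Cfsg.Agent.Lib.Helper60.Oq

open Polynomial Matrix

-- PIECE DIAGFORM
theorem exists_diag_form {F : Type*} [Field F] [Fintype F] (h2 : (2 : F) ≠ 0) (n : ℕ)
    (Q : (Fin n → F) → F) (hQ : Cfsg.Geo.IsNondegenerateQuadraticForm Q) :
    ∃ (L : (Fin n → F) ≃ₗ[F] (Fin n → F)) (a : Fin n → F), (∀ i, a i ≠ 0) ∧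
      ∀ v, (∑ i, a i * (L v i) ^ 2) = 1 * Q v := by
  have : Invertible (2 : F) := invertibleOfNonzero h2
  let q : QuadraticForm F (Fin n → F) :=
    QuadraticMap.ofPolar Q (fun a x => by rw [hQ.smul, smul_eq_mul, pow_two])
      (fun x x' y => hQ.polar_bilinear.add_left x x' y)
      (fun a x y => by rw [hQ.polar_bilinear.smul_left, smul_eq_mul])
  have hq : ∀ v, q v = Q v := fun v => rfl
  have hsep : (QuadraticMap.associated (R := F) q).SeparatingLeft := by
    intro x hx
    by_contra hx0
    obtain ⟨y, hy⟩ := (hQ.nondegenerate x hx0).2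
    apply hy
    have h1 := hx y
    have h4 : (2 • QuadraticMap.associated (R := F) q) x y = QuadraticMap.polarBilin q x y := by
      rw [QuadraticMap.two_nsmul_associated]
    rw [QuadraticMap.polarBilin_apply_apply] at h4
    have h5 : QuadraticMap.polar q x y = 0 := by
      rw [← h4, LinearMap.smul_apply, LinearMap.smul_apply, h1, smul_zero]
    exact h5
  obtain ⟨w, ⟨e⟩⟩ := QuadraticForm.equivalent_weightedSumSquares_units_of_nondegenerate' q hsep
  have hfr : Module.finrank F (Fin n → F) = n := Module.finrank_fin_fun F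
  let σ : Fin n ≃ Fin (Module.finrank F (Fin n → F)) := (finCongr hfr).symm
  refine ⟨e.toLinearEquiv.trans (LinearEquiv.funCongrLeft F F σ), fun i => (w (σ i) : F),
    fun i => Units.ne_zero _, ?_⟩
  intro v
  rw [one_mul, ← hq v, ← e.map_app v, QuadraticMap.weightedSumSquares_apply,
    ← Equiv.sum_comp σ]
  refine Finset.sum_congr rfl fun i _ => ?_
  rw [Units.smul_def, smul_eq_mul, pow_two]
  rfl

end Cfsg.Agent.Lib.Helper60.Oq
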