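import Mathlib
import Cfsg.Prelude.Def_GeometricClasses
import Cfsg.Prelude.Def_LieClassical
import Cfsg.Agent.Lib.Helper71.Asch0
import Cfsg.Agent.Lib.Helper40.SPPTF

/-!
# Project O9 (helper44), piece TFO (helper60)

A symmetric form fixed by `L = P (R ⊗ 1) P⁻¹`, `R` absolutely irreducible, `2 ≠ 0`, is a Kronecker
product `G₁ ⊗ G₂` of Gram matrices, both symmetric or both skew-symmetric.  Twin of the piece TF
of project SPP (helper40), whose auxiliary lemmas are reused.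
-/

set_option autoImplicit false

namespace Cfsg.Agent.Lib.Helper44.O9

open Matrix Cfsg.Geo Cfsg.Agent.Lib.Helper71.Asch
open Cfsg.Agent.Lib.Helper40.SPPTF (gram_rep mat_ext Inv inv_det inv_smul ten ten_add ten_smul
  ten_single kron_ten tmat_mulVec)
open scoped Kronecker

variable {n : ℕ} {F : Type*} [Field F] [Fintype F]

theorem TFO (h2 : (2 : F) ≠ 0) (f : (Fin n → F) → (Fin n → F) → F) (hf : IsSymmetricForm f)
    {d k : ℕ} (e : Fin n ≃ Fin d × Fin k) (P : GL (Fin n) F) (R : Subgroup (GL (Fin d) F))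
    (L : Subgroup (GL (Fin n) F)) (hRa : ActsAbsolutelyIrreducibly (matrixSet R))
    (h1 : ∀ x ∈ L, ∃ y ∈ R, x.1 = tmat e P y.1 1) (h2' : ∀ y ∈ R, ∃ x ∈ L, x.1 = tmat e P y.1 1)
    (hfix : FixesForm (matrixSet L) f) :
    ∃ (G₁ : Matrix (Fin d) (Fin d) F) (G₂ : Matrix (Fin k) (Fin k) F), G₁.det ≠ 0 ∧ G₂.det ≠ 0 ∧
      ((G₁ᵀ = G₁ ∧ G₂ᵀ = G₂) ∨ (G₁ᵀ = -G₁ ∧ (∀ i, G₁ i i = 0) ∧ G₂ᵀ = -G₂)) ∧
      ∀ x y : Fin d × Fin k → F,
        f (P.1 *ᵥ (x ∘ e)) (P.1 *ᵥ (y ∘ e)) = formOfGram id (G₁ ⊗ₖ G₂) x y := by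
  classical
  have hf00 : f 0 0 = 0 := by
    have h3 := hf.bilinear.smul_left (0 : F) (0 : Fin n → F) (0 : Fin n → F)
    rw [zero_smul, zero_mul] at h3
    exact h3
  rcases Nat.eq_zero_or_pos d with hd0 | hdpos
  · -- `d = 0`
    subst hd0
    have : IsEmpty (Fin n) := e.isEmpty
    refine ⟨0, 1, by simp, by simp, Or.inl ⟨by ext i; exact i.elim0, Matrix.transpose_one⟩,
      fun x y => ?_⟩
    have hx0 : P.1 *ᵥ (x ∘ e) = 0 := Subsingleton.elim _ _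
    have hy0 : P.1 *ᵥ (y ∘ e) = 0 := Subsingleton.elim _ _
    rw [hx0, hy0, hf00]
    unfold formOfGram
    simp
  rcases Nat.eq_zero_or_pos k with hk0 | hkpos
  · -- `k = 0`
    subst hk0
    have : IsEmpty (Fin n) := e.isEmpty
    refine ⟨1, 0, by simp, by simp, Or.inl ⟨Matrix.transpose_one, by ext i; exact i.elim0⟩,
      fun x y => ?_⟩
    have hx0 : P.1 *ᵥ (x ∘ e) = 0 := Subsingleton.elim _ _
    have hy0 : P.1 *ᵥ (y ∘ e) = 0 := Subsingleton.elim _ _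
    rw [hx0, hy0, hf00]
    unfold formOfGram
    simp
  -- the form on `Fin d × Fin k → F`
  set β : (Fin d × Fin k → F) → (Fin d × Fin k → F) → F :=
    fun x y => f (P.1 *ᵥ (x ∘ e)) (P.1 *ᵥ (y ∘ e)) with hβ
  have hβb : IsBilinearForm β := by
    refine ⟨fun x y v => ?_, fun c x v => ?_, fun v x y => ?_, fun c v x => ?_⟩
    · show f (P.1 *ᵥ ((x + y) ∘ e)) _ = f (P.1 *ᵥ (x ∘ e)) _ + f (P.1 *ᵥ (y ∘ e)) _
      rw [show (x + y) ∘ e = x ∘ e + y ∘ e from rfl, Matrix.mulVec_add, hf.bilinear.add_left]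
    · show f (P.1 *ᵥ ((c • x) ∘ e)) _ = c * f (P.1 *ᵥ (x ∘ e)) _
      rw [show (c • x) ∘ e = c • (x ∘ e) from rfl, Matrix.mulVec_smul, hf.bilinear.smul_left]
    · show f _ (P.1 *ᵥ ((x + y) ∘ e)) = f _ (P.1 *ᵥ (x ∘ e)) + f _ (P.1 *ᵥ (y ∘ e))
      rw [show (x + y) ∘ e = x ∘ e + y ∘ e from rfl, Matrix.mulVec_add, hf.bilinear.add_right]
    · show f _ (P.1 *ᵥ ((c • x) ∘ e)) = c * f _ (P.1 *ᵥ (x ∘ e))
      rw [show (c • x) ∘ e = c • (x ∘ e) from rfl, Matrix.mulVec_smul, hf.bilinear.smul_right]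
  have hβsymm : ∀ x y, β x y = β y x := fun x y => hf.symm _ _
  have hPinv : (P⁻¹ : GL (Fin n) F).1 * P.1 = 1 := by
    rw [← Units.val_mul, inv_mul_cancel, Units.val_one]
  have hPinv' : P.1 * (P⁻¹ : GL (Fin n) F).1 = 1 := by
    rw [← Units.val_mul, mul_inv_cancel, Units.val_one]
  have hβnd : ∀ v : Fin d × Fin k → F, v ≠ 0 → ∃ x, β x v ≠ 0 := by
    intro v hv
    have hPv : P.1 *ᵥ (v ∘ e) ≠ 0 := by
      intro h0
      have h3 := congrArg (fun w => (P⁻¹ : GL (Fin n) F).1 *ᵥ w) h0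
      simp only [Matrix.mulVec_zero] at h3
      rw [Matrix.mulVec_mulVec, hPinv, Matrix.one_mulVec] at h3
      apply hv
      funext p
      have := congrFun h3 (e.symm p)
      simpa using this
    obtain ⟨w, hw⟩ := (hf.nondegenerate _ hPv).1
    refine ⟨((P⁻¹ : GL (Fin n) F).1 *ᵥ w) ∘ e.symm, ?_⟩
    show f (P.1 *ᵥ ((((P⁻¹ : GL (Fin n) F).1 *ᵥ w) ∘ e.symm) ∘ e)) (P.1 *ᵥ (v ∘ e)) ≠ 0
    have h4 : (((P⁻¹ : GL (Fin n) F).1 *ᵥ w) ∘ e.symm) ∘ e = (P⁻¹ : GL (Fin n) F).1 *ᵥ w := by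
      funext i
      simp
    rw [h4, Matrix.mulVec_mulVec, hPinv', Matrix.one_mulVec]
    exact hw
  -- invariance
  have hinv : ∀ y ∈ R, ∀ x x' : Fin d × Fin k → F,
      β ((y.1 ⊗ₖ (1 : Matrix (Fin k) (Fin k) F)) *ᵥ x)
        ((y.1 ⊗ₖ (1 : Matrix (Fin k) (Fin k) F)) *ᵥ x') = β x x' := by
    intro y hy x x'
    obtain ⟨g, hg, hgy⟩ := h2' y hy
    have h5 := hfix g.1 ⟨g, hg, rfl⟩ (P.1 *ᵥ (x ∘ e)) (P.1 *ᵥ (x' ∘ e))
    rw [hgy, tmat_mulVec, tmat_mulVec] at h5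
    exact h5
  -- the blocks
  set γ : Fin k → Fin k → (Fin d → F) → (Fin d → F) → F :=
    fun a b u u' => β (ten u a) (ten u' b) with hγ
  have hγb : ∀ a b, IsBilinearForm (γ a b) := by
    intro a b
    refine ⟨fun x y v => ?_, fun c x v => ?_, fun v x y => ?_, fun c v x => ?_⟩
    · show β (ten (x + y) a) _ = β (ten x a) _ + β (ten y a) _
      rw [ten_add, hβb.add_left]
    · show β (ten (c • x) a) _ = c * β (ten x a) _
      rw [ten_smul, hβb.smul_left]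
    · show β _ (ten (x + y) b) = β _ (ten x b) + β _ (ten y b)
      rw [ten_add, hβb.add_right]
    · show β _ (ten (c • x) b) = c * β _ (ten x b)
      rw [ten_smul, hβb.smul_right]
  choose G hG hG' using fun a b => gram_rep (γ a b) (hγb a b)
  have hGinv : ∀ a b, Inv R (G a b) := by
    intro a b y hy
    apply mat_ext
    intro u v
    have h6 : u ⬝ᵥ ((y.1ᵀ * G a b * y.1) *ᵥ v) = (y.1 *ᵥ u) ⬝ᵥ (G a b *ᵥ (y.1 *ᵥ v)) := by
      rw [← Matrix.mulVec_mulVec, ← Matrix.mulVec_mulVec, Matrix.dotProduct_mulVec,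
        Matrix.vecMul_transpose]
    rw [h6, ← hG, ← hG]
    show β (ten (y.1 *ᵥ u) a) (ten (y.1 *ᵥ v) b) = β (ten u a) (ten v b)
    rw [← kron_ten, ← kron_ten]
    exact hinv y hy _ _
  obtain ⟨J, hJ, hJ'⟩ := gram_rep β hβb
  have hJG : ∀ p p' : Fin d × Fin k, J p p' = G p.2 p'.2 p.1 p'.1 := by
    intro p p'
    rw [hJ', hG']
    show _ = β (ten (Pi.single p.1 1) p.2) (ten (Pi.single p'.1 1) p'.2)
    rw [ten_single, ten_single]
  -- a non-zero block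
  have hex : ∃ a₀ b₀, G a₀ b₀ ≠ 0 := by
    by_contra hcon
    push Not at hcon
    have hJ0 : J = 0 := by
      ext p p'
      rw [hJG, hcon]
      rfl
    have hv : (Pi.single ((⟨0, hdpos⟩ : Fin d), (⟨0, hkpos⟩ : Fin k)) (1 : F) :
        Fin d × Fin k → F) ≠ 0 := by
      intro h0
      have := congrFun h0 ((⟨0, hdpos⟩ : Fin d), (⟨0, hkpos⟩ : Fin k))
      simp at this
    obtain ⟨x, hx⟩ := hβnd _ hv
    apply hx
    rw [hJ, hJ0, Matrix.zero_mulVec, dotProduct_zero]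
  obtain ⟨a₀, b₀, hne⟩ := hex
  set G₁ : Matrix (Fin d) (Fin d) F := G a₀ b₀ with hG₁
  have hdet₁ : G₁.det ≠ 0 := inv_det R hRa.1 G₁ (hGinv a₀ b₀) hne
  choose M hM using fun a b => inv_smul R hRa G₁ (G a b) (hGinv a₀ b₀) (hGinv a b) hdet₁
  set G₂ : Matrix (Fin k) (Fin k) F := fun a b => M a b with hG₂
  have hJK : J = G₁ ⊗ₖ G₂ := by
    ext ⟨i, a⟩ ⟨j, b⟩
    rw [hJG, hM, Matrix.smul_apply, Matrix.kroneckerMap_apply, smul_eq_mul, mul_comm]
  have hJdet : J.det ≠ 0 := by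
    intro h0
    obtain ⟨v, hv0, hv⟩ := Matrix.exists_mulVec_eq_zero_iff.mpr h0
    obtain ⟨x, hx⟩ := hβnd v hv0
    apply hx
    rw [hJ, hv, dotProduct_zero]
  have hdet₂ : G₂.det ≠ 0 := by
    intro h0
    apply hJdet
    rw [hJK, Matrix.det_kronecker, h0, zero_pow (by rw [Fintype.card_fin]; omega), mul_zero]
  -- the symmetry type of `G₁`
  have hGt : Inv R G₁ᵀ := by
    intro y hy
    have h7 := congrArg Matrix.transpose (hGinv a₀ b₀ y hy)
    rw [Matrix.transpose_mul, Matrix.transpose_mul, Matrix.transpose_transpose] at h7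
    rw [Matrix.mul_assoc]
    exact h7
  obtain ⟨ε, hε⟩ := inv_smul R hRa G₁ G₁ᵀ (hGinv a₀ b₀) hGt hdet₁
  obtain ⟨i₀, j₀, hij⟩ : ∃ i j, G₁ i j ≠ 0 := by
    by_contra hcon
    push Not at hcon
    exact hne (Matrix.ext hcon)
  have hT : ∀ i j, G₁ j i = ε * G₁ i j := by
    intro i j
    have := congrFun (congrFun hε i) j
    simpa [Matrix.transpose_apply, Matrix.smul_apply] using this
  have hε2 : ε * ε = 1 := by
    have h8 : G₁ i₀ j₀ = ε * (ε * G₁ i₀ j₀) := by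
      conv_lhs => rw [hT j₀ i₀, hT i₀ j₀]
    have h9 : (ε * ε - 1) * G₁ i₀ j₀ = 0 := by linear_combination -h8
    rcases mul_eq_zero.1 h9 with h | h
    · linear_combination h
    · exact absurd h hij
  have hJsymm : ∀ p p', J p p' = J p' p := by
    intro p p'
    rw [hJ', hJ']
    exact hβsymm _ _
  have hJe : ∀ i a j b, J (i, a) (j, b) = G₁ i j * G₂ a b := by
    intro i a j b
    rw [hJK, Matrix.kroneckerMap_apply]
  have hsym2 : ∀ a b, G₂ a b = ε * G₂ b a := by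
    intro a b
    have h10 := hJsymm (i₀, a) (j₀, b)
    rw [hJe, hJe, hT i₀ j₀] at h10
    have h11 : (G₂ a b - ε * G₂ b a) * G₁ i₀ j₀ = 0 := by linear_combination h10
    rcases mul_eq_zero.1 h11 with h | h
    · linear_combination h
    · exact absurd h hij
  have hid : ∀ x y : Fin d × Fin k → F,
      f (P.1 *ᵥ (x ∘ e)) (P.1 *ᵥ (y ∘ e)) = formOfGram id (G₁ ⊗ₖ G₂) x y := by
    intro x y
    show β x y = _
    rw [hJ, hJK]
    unfold formOfGram
    simp only [dotProduct, Matrix.mulVec, Finset.mul_sum, id, mul_assoc]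
  refine ⟨G₁, G₂, hdet₁, hdet₂, ?_, hid⟩
  rcases mul_self_eq_one_iff.1 hε2 with h1' | h1'
  · -- `ε = 1`
    subst h1'
    have hs1 : G₁ᵀ = G₁ := by rw [hε, one_smul]
    have hs2 : G₂ᵀ = G₂ := by
      ext a b
      rw [Matrix.transpose_apply, hsym2 b a, one_mul]
    exact Or.inl ⟨hs1, hs2⟩
  · -- `ε = -1`
    subst h1'
    have hs1 : G₁ᵀ = -G₁ := by rw [hε, neg_smul, one_smul]
    have hs2 : G₂ᵀ = -G₂ := by
      ext a b
      rw [Matrix.transpose_apply, Matrix.neg_apply, hsym2 b a]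
      ring
    refine Or.inr ⟨hs1, fun i => ?_, hs2⟩
    have h12 := hT i i
    have h13 : (2 : F) * G₁ i i = 0 := by linear_combination h12
    rcases mul_eq_zero.1 h13 with h | h
    · exact absurd h h2
    · exact h

end Cfsg.Agent.Lib.Helper44.O9
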