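import Mathlib
import Cfsg.Prelude.Def_GeometricClasses
import Cfsg.Prelude.Def_LieClassical
import Cfsg.Agent.Lib.Helper71.Asch0
import Cfsg.Agent.Lib.Helper71.Asch5
import Cfsg.Agent.Lib.Helper71.AschMain
import Cfsg.Agent.Lib.Helper65.ASF
import Cfsg.Agent.Lib.Helper65.ASSN

/-!
# SU4 piece U54 (project of helper50, statement S5784)

The symplectic-type branch in dimension `4`: assembly of the landed pieces of the linear engine
(SA, SB, SC, SE, SF, SR, SG, SH, SLmain, SM, ASSN), following `Helper71.AschMain.B5` and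
`Helper29.SUPU5.U5`.
-/

set_option autoImplicit false

namespace Cfsg.Agent.Lib.Helper60.SU4U54

open Matrix Cfsg.Geo Cfsg.Agent.Lib.Helper71.Asch
open Cfsg.Agent.Lib.Helper82.ASSA (SA)
open Cfsg.Agent.Lib.Helper28.ASSB (SB)
open Cfsg.Agent.Lib.Helper66.ASSC (SC)
open Cfsg.Agent.Lib.Helper65.ASSE (SE)
open Cfsg.Agent.Lib.Helper12.ASSF (SF SR)
open Cfsg.Agent.Lib.Helper82.ASSG (SG SH)
open Cfsg.Agent.Lib.Helper75.ASSM (SM)
open Cfsg.Agent.Lib.Helper71.AschMain (SLmain)

variable {n : ℕ} {F : Type*} [Field F] [Fintype F] {q : ℕ}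

/-- U54: the symplectic-type branch in dimension `4`: `L` is realisable over a proper subfield,
or has centre of order `2` (with the trace data of the orthogonal/symplectic case), or is of
symplectic type `4 ∘ 2^{1+4}` over the minimal field containing the fourth roots of unity. -/
theorem U54 (H L : Subgroup (GL (Fin 4) F)) (h : SymT H L) :
    (∃ F₁ : Subfield F, F₁ ≠ ⊤ ∧ RealisableOver F₁ (matrixSet L)) ∨
    (Nat.card ↥(L ⊓ scalars (Fin 4) F) = 2 ∧ (2 : F) ≠ 0 ∧ ((4 : ℕ) : F) ≠ 0 ∧
      ∀ x ∈ L, x ∉ scalars (Fin 4) F → Matrix.trace x.1 = 0) ∨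
    (∃ p e : ℕ, IsSymplecticTypeGroup 2 L ∧ 2 ≠ p ∧ IsMinimalFieldFor 4 p e F ∧
      Nat.card L = 64 ∧ Nat.card (Subgroup.center L) = 4) := by
  classical
  obtain ⟨r, hr, hx⟩ := SA H L h
  have hr0 := SB (by norm_num) H L h r hr hx
  have hp := SC H L h r hr hx
  have hexp := SE (by norm_num) H L h r hr hx hp
  have htr := SG H L h
  have hn0 := SH (by norm_num) L h.abs r hr hr0 hp
  rcases SF (by norm_num) H L h r hr hexp with ⟨hodd, hz⟩ | ⟨hr2, hz | hz⟩
  · -- `r` odd is impossible: `|L| = r * 16` is a power of `r`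
    exfalso
    have hg : Nat.gcd 2 r = 1 := Nat.coprime_two_left.mpr hodd
    have hroot : ∃ ζ : F, IsPrimitiveRoot ζ r := by
      have h1 := SR (by norm_num) L
      rw [hz] at h1
      exact h1
    have hexpz : ∀ x ∈ L, x ^ r = 1 := by
      intro x hxL
      have h1 := hexp x hxL
      rw [hg, mul_one] at h1
      exact h1
    obtain ⟨-, hcard⟩ := SLmain (by norm_num) H L h r hr hx r hexpz hr0 hroot
    rw [hz] at hcard
    have : Fact r.Prime := ⟨hr⟩
    have hpG : IsPGroup r ↥L := Cfsg.Agent.Lib.Helper65.ASSN.isPGroup_L L r hr hexp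
    obtain ⟨a, ha⟩ := IsPGroup.iff_card.1 hpG
    have h2 : 2 ∣ r ^ a := by
      rw [← ha, hcard]
      exact Dvd.dvd.mul_left (by norm_num) r
    have h3 : 2 ∣ r := Nat.Prime.dvd_of_dvd_pow Nat.prime_two h2
    have h4 : 2 = r := (Nat.prime_dvd_prime_iff_eq Nat.prime_two hr).1 h3
    rw [← h4] at hodd
    exact absurd hodd (by decide)
  · -- `r = 2`, centre of order `2`
    subst hr2
    right
    left
    have h2 : (2 : F) ≠ 0 := by exact_mod_cast hr0
    exact ⟨hz, h2, hn0, htr⟩
  · -- `r = 2`, centre of order `4`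
    subst hr2
    have hz0 : ((4 : ℕ) : F) ≠ 0 := by
      have h2 : ((2 : ℕ) : F) ≠ 0 := hr0
      have h4 : ((4 : ℕ) : F) = ((2 : ℕ) : F) * ((2 : ℕ) : F) := by norm_num
      rw [h4]
      exact mul_ne_zero h2 h2
    have hroot : ∃ ζ : F, IsPrimitiveRoot ζ 4 := by
      have h1 := SR (by norm_num) L
      rw [hz] at h1
      exact h1
    have h24 : 2 * Nat.gcd 2 2 = 4 := by norm_num
    have hexpz : ∀ x ∈ L, x ^ 4 = 1 := by
      intro x hxL
      have h1 := hexp x hxL
      rw [h24] at h1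
      exact h1
    obtain ⟨hreal, hcard⟩ := SLmain (by norm_num) H L h 2 Nat.prime_two hx 4 hexpz hz0 hroot
    rcases SM 4 hroot (by norm_num) with ⟨F₁, hF₁, hF₁z⟩ | ⟨p, e, hmin⟩
    · left
      exact ⟨F₁, hF₁, hreal F₁ hF₁z⟩
    · right
      right
      have : Fact (Nat.Prime 2) := ⟨Nat.prime_two⟩
      have hpG : IsPGroup 2 ↥L := Cfsg.Agent.Lib.Helper65.ASSN.isPGroup_L L 2 Nat.prime_two hexp
      have hexpo : Monoid.exponent ↥L = 2 * Nat.gcd 2 2 := by
        have hdvd : Monoid.exponent ↥L ∣ 2 * Nat.gcd 2 2 := by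
          apply Monoid.exponent_dvd_of_forall_pow_eq_one
          intro x
          apply Subtype.ext
          exact hexp x.1 x.2
        rw [h24] at hdvd ⊢
        have hne1 : Monoid.exponent ↥L ≠ 1 := by
          intro h1
          rw [Monoid.exp_eq_one_iff] at h1
          obtain ⟨x, hx', y, hy, hne⟩ := Cfsg.Agent.Lib.Helper65.ASF.not_abelian h
          apply hne
          have h2 : (⟨x, hx'⟩ : ↥L) = ⟨y, hy⟩ := Subsingleton.elim _ _
          have h3 : x = y := congrArg Subtype.val h2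
          rw [h3]
        have hne2 : Monoid.exponent ↥L ≠ 2 := by
          intro h2
          obtain ⟨x, hx', y, hy, hne⟩ := Cfsg.Agent.Lib.Helper65.ASF.not_abelian h
          apply hne
          have h3 := mul_comm_of_exponent_two h2 (⟨x, hx'⟩ : ↥L) ⟨y, hy⟩
          exact congrArg Subtype.val h3
        obtain ⟨k, hk, hk2⟩ := (Nat.dvd_prime_pow Nat.prime_two).1
          (show Monoid.exponent ↥L ∣ 2 ^ 2 from hdvd)
        rw [hk2] at hne1 hne2 ⊢
        interval_cases k
        · exact absurd rfl hne1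
        · exact absurd rfl hne2
        · norm_num
      have hsymp : IsSymplecticTypeGroup 2 L :=
        { prime := Nat.prime_two
          pGroup := hpG
          cyclic_of_characteristic := fun A hA hAc =>
            Cfsg.Agent.Lib.Helper65.ASSN.cyclic_of_char H L h A hA hAc
          exponent_eq := hexpo }
      have hrp : 2 ≠ p := by
        intro hrp
        have := hmin.2.1
        apply hr0
        rw [hrp]
        exact CharP.cast_eq_zero F p
      refine ⟨p, e, hsymp, hrp, hmin, ?_, ?_⟩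
      · rw [hcard, hz]
        norm_num
      · rw [Cfsg.Agent.Lib.Helper65.ASSN.card_center H L h, hz]

end Cfsg.Agent.Lib.Helper60.SU4U54
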