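import Mathlib
import Cfsg.Agent.Lib.Helper60.GL4A8

namespace Cfsg.Agent.Lib.Helper60.A7GL4

open MulAction

section general

variable {F : Type*} [Field F] [Fintype F]

set_option linter.unusedSectionVars false

theorem scalar_cases (hF : Fintype.card F = 2) (a : F) : a = 0 ∨ a = 1 := by
  let e := ZMod.ringEquivOfPrime F Nat.prime_two hF
  have h : ∀ z : ZMod 2, z = 0 ∨ z = 1 := by decide
  rcases h (e.symm a) with h0 | h1
  · left
    have := congrArg e h0
    simpa using this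
  · right
    have := congrArg e h1
    simpa using this

theorem one_add_one_eq (hF : Fintype.card F = 2) : (1 : F) + 1 = 0 := by
  let e := ZMod.ringEquivOfPrime F Nat.prime_two hF
  have h : (1 : ZMod 2) + 1 = 0 := by decide
  have := congrArg e h
  simpa using this

theorem add_self_vec (hF : Fintype.card F = 2) (v : Fin 4 → F) : v + v = 0 := by
  ext i
  have h := one_add_one_eq hF
  calc v i + v i = (1 + 1) * v i := by ring
    _ = 0 := by rw [h, zero_mul]

theorem linIndep_pair (hF : Fintype.card F = 2) {v x : Fin 4 → F} (hv : v ≠ 0) (hx : x ≠ 0)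
    (hvx : v ≠ x) : LinearIndependent F ![v, x] := by
  rw [LinearIndependent.pair_iff]
  intro s t h
  rcases scalar_cases hF s with rfl | rfl <;> rcases scalar_cases hF t with rfl | rfl
  · exact ⟨rfl, rfl⟩
  · simp at h
    exact absurd h hx
  · simp at h
    exact absurd h hv
  · exfalso
    simp only [one_smul] at h
    apply hvx
    have h2 : v = v + (v + x) := by rw [h, add_zero]
    rw [h2, ← add_assoc, add_self_vec hF, zero_add]

theorem exists_gl_pair (hF : Fintype.card F = 2) {v x v' x' : Fin 4 → F} (hv : v ≠ 0)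
    (hx : x ≠ 0) (hvx : v ≠ x) (hv' : v' ≠ 0) (hx' : x' ≠ 0) (hvx' : v' ≠ x') :
    ∃ g : GL (Fin 4) F, g • v = v' ∧ g • x = x' := by
  have hD := linIndep_pair hF hv hx hvx
  have hE := linIndep_pair hF hv' hx' hvx'
  have q0 {a b : Fin 4 → F} (h : LinearIndependent F ![a, b]) :
      ((h.linearCombinationEquiv (Finsupp.single 0 1) :
        ↥(Submodule.span F (Set.range ![a, b]))) : Fin 4 → F) = a := by simp
  have q1 {a b : Fin 4 → F} (h : LinearIndependent F ![a, b]) :
      ((h.linearCombinationEquiv (Finsupp.single 1 1) :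
        ↥(Submodule.span F (Set.range ![a, b]))) : Fin 4 → F) = b := by simp
  let f := hD.linearCombinationEquiv.symm ≪≫ₗ hE.linearCombinationEquiv
  obtain ⟨g, hg⟩ := Submodule.exists_linearEquiv_restrict_eq f
  have hgv : g v = v' := by
    have h1 := hg (hD.linearCombinationEquiv (Finsupp.single 0 1))
    rw [q0 hD] at h1
    rw [← h1]
    simp only [f, LinearEquiv.trans_apply, LinearEquiv.symm_apply_apply]
    exact q0 hE
  have hgx : g x = x' := by
    have h1 := hg (hD.linearCombinationEquiv (Finsupp.single 1 1))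
    rw [q1 hD] at h1
    rw [← h1]
    simp only [f, LinearEquiv.trans_apply, LinearEquiv.symm_apply_apply]
    exact q1 hE
  let M : Matrix (Fin 4) (Fin 4) F := LinearMap.toMatrix' (g : (Fin 4 → F) →ₗ[F] (Fin 4 → F))
  let N : Matrix (Fin 4) (Fin 4) F :=
    LinearMap.toMatrix' (g.symm : (Fin 4 → F) →ₗ[F] (Fin 4 → F))
  have hMN : M * N = 1 := by
    show LinearMap.toMatrix' _ * LinearMap.toMatrix' _ = 1
    rw [← LinearMap.toMatrix'_comp]
    simp
  have hNM : N * M = 1 := by
    show LinearMap.toMatrix' _ * LinearMap.toMatrix' _ = 1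
    rw [← LinearMap.toMatrix'_comp]
    simp
  have hMv : ∀ w : Fin 4 → F, M.mulVec w = g w := by
    intro w
    rw [← Matrix.toLin'_apply]
    show Matrix.toLin' (LinearMap.toMatrix' _) w = _
    rw [Matrix.toLin'_toMatrix']
    rfl
  refine ⟨⟨M, N, hMN, hNM⟩, ?_, ?_⟩
  · show M.mulVec v = v'
    rw [hMv, hgv]
  · show M.mulVec x = x'
    rw [hMv, hgx]

theorem card_GL4F (hF : Fintype.card F = 2) : Nat.card (GL (Fin 4) F) = 20160 := by
  rw [Matrix.card_GL_field, hF]
  decide

theorem smul_zero_vec (g : GL (Fin 4) F) : g • (0 : Fin 4 → F) = 0 :=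
  Matrix.mulVec_zero _

theorem smul_add_vec (g : GL (Fin 4) F) (a b : Fin 4 → F) : g • (a + b) = g • a + g • b :=
  Matrix.mulVec_add _ _ _

theorem smul_ne_zero_vec (g : GL (Fin 4) F) {v : Fin 4 → F} (hv : v ≠ 0) : g • v ≠ 0 := by
  intro h
  apply hv
  have : g • v = g • (0 : Fin 4 → F) := by rw [h, smul_zero_vec]
  exact MulAction.injective g this

theorem eq_one_of_forall_smul (g : GL (Fin 4) F) (h : ∀ u : Fin 4 → F, g • u = u) : g = 1 := by
  apply Units.ext
  apply Matrix.toLin'.injective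
  apply LinearMap.ext
  intro u
  rw [Matrix.toLin'_apply]
  show g • u = _
  rw [h u]
  simp


/-! ### counting vectors and pairs -/

theorem card_vec (hF : Fintype.card F = 2) : Fintype.card (Fin 4 → F) = 16 := by
  rw [Fintype.card_fun, hF]
  rfl

/-- a bijection of the vector space with `Fin 16` sending `0` to `0` -/
noncomputable def vecEquiv (hF : Fintype.card F = 2) : (Fin 4 → F) ≃ Fin 16 :=
  (Fintype.equivFinOfCardEq (card_vec hF)).trans
    (Equiv.swap (Fintype.equivFinOfCardEq (card_vec hF) 0) 0)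

theorem vecEquiv_zero (hF : Fintype.card F = 2) : vecEquiv hF 0 = 0 := by
  simp [vecEquiv]

theorem vecEquiv_ne_zero (hF : Fintype.card F = 2) {v : Fin 4 → F} (hv : v ≠ 0) :
    vecEquiv hF v ≠ 0 := by
  intro h
  apply hv
  apply (vecEquiv hF).injective
  rw [h, vecEquiv_zero]

theorem ncard_nonzero (hF : Fintype.card F = 2) : {w : Fin 4 → F | w ≠ 0}.ncard = 15 := by
  have h1 : Fintype.card {i : Fin 16 // i ≠ 0} = 15 := by decide
  rw [← Nat.card_coe_set_eq, ← h1, ← Nat.card_eq_fintype_card]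
  apply Nat.card_congr
  refine (vecEquiv hF).subtypeEquiv ?_
  intro a
  constructor
  · intro ha
    exact vecEquiv_ne_zero hF ha
  · intro ha h0
    apply ha
    rw [h0, vecEquiv_zero]

theorem ncard_two_out (hF : Fintype.card F = 2) {v : Fin 4 → F} (hv : v ≠ 0) :
    {w : Fin 4 → F | w ≠ 0 ∧ w ≠ v}.ncard = 14 := by
  have h1 : ∀ j : Fin 16, j ≠ 0 → Fintype.card {i : Fin 16 // i ≠ 0 ∧ i ≠ j} = 14 := by decide
  rw [← Nat.card_coe_set_eq, ← h1 _ (vecEquiv_ne_zero hF hv), ← Nat.card_eq_fintype_card]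
  apply Nat.card_congr
  refine (vecEquiv hF).subtypeEquiv ?_
  intro a
  constructor
  · rintro ⟨ha, hav⟩
    exact ⟨vecEquiv_ne_zero hF ha, fun h => hav ((vecEquiv hF).injective h)⟩
  · rintro ⟨ha, hav⟩
    refine ⟨?_, ?_⟩
    · intro h0
      apply ha
      rw [h0, vecEquiv_zero]
    · intro h0
      apply hav
      rw [h0]

theorem ncard_pairs (hF : Fintype.card F = 2) :
    {p : (Fin 4 → F) × (Fin 4 → F) | p.1 ≠ 0 ∧ p.2 ≠ 0 ∧ p.1 ≠ p.2}.ncard = 210 := by
  have h1 : Fintype.card {q : Fin 16 × Fin 16 // q.1 ≠ 0 ∧ q.2 ≠ 0 ∧ q.1 ≠ q.2} = 210 := by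
    decide +kernel
  rw [← Nat.card_coe_set_eq, ← h1, ← Nat.card_eq_fintype_card]
  apply Nat.card_congr
  refine ((vecEquiv hF).prodCongr (vecEquiv hF)).subtypeEquiv ?_
  rintro ⟨a, b⟩
  constructor
  · rintro ⟨ha, hb, hab⟩
    exact ⟨vecEquiv_ne_zero hF ha, vecEquiv_ne_zero hF hb,
      fun h => hab ((vecEquiv hF).injective h)⟩
  · rintro ⟨ha, hb, hab⟩
    refine ⟨?_, ?_, ?_⟩
    · intro h0
      apply ha
      have h0' : a = 0 := h0
      show vecEquiv hF a = 0
      rw [h0', vecEquiv_zero]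
    · intro h0
      apply hb
      have h0' : b = 0 := h0
      show vecEquiv hF b = 0
      rw [h0', vecEquiv_zero]
    · intro h0
      apply hab
      have h0' : a = b := h0
      show vecEquiv hF a = vecEquiv hF b
      rw [h0']

/-! ### the orbits of the full group -/

theorem orbit_pair (hF : Fintype.card F = 2) {v x : Fin 4 → F} (hv : v ≠ 0) (hx : x ≠ 0)
    (hvx : v ≠ x) :
    orbit (GL (Fin 4) F) (v, x) =
      {p : (Fin 4 → F) × (Fin 4 → F) | p.1 ≠ 0 ∧ p.2 ≠ 0 ∧ p.1 ≠ p.2} := by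
  ext ⟨a, b⟩
  constructor
  · rintro ⟨g, hg⟩
    have h1 : g • v = a := congrArg Prod.fst hg
    have h2 : g • x = b := congrArg Prod.snd hg
    refine ⟨?_, ?_, ?_⟩
    · show a ≠ 0
      rw [← h1]; exact smul_ne_zero_vec g hv
    · show b ≠ 0
      rw [← h2]; exact smul_ne_zero_vec g hx
    · show a ≠ b
      rw [← h1, ← h2]
      intro h
      exact hvx (MulAction.injective g h)
  · rintro ⟨ha, hb, hab⟩
    obtain ⟨g, h1, h2⟩ := exists_gl_pair hF hv hx hvx ha hb hab
    exact ⟨g, Prod.ext h1 h2⟩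

theorem card_stab_pair (hF : Fintype.card F = 2) {v x : Fin 4 → F} (hv : v ≠ 0) (hx : x ≠ 0)
    (hvx : v ≠ x) : Nat.card (stabilizer (GL (Fin 4) F) (v, x)) = 96 := by
  have h1 := (stabilizer (GL (Fin 4) F) (v, x)).card_mul_index
  rw [index_stabilizer, orbit_pair hF hv hx hvx, ncard_pairs hF, card_GL4F hF] at h1
  omega

theorem exists_other (hF : Fintype.card F = 2) (v : Fin 4 → F) :
    ∃ x : Fin 4 → F, x ≠ 0 ∧ v ≠ x := by
  by_contra hcon
  push Not at hcon
  have h1 : ({w : Fin 4 → F | w ≠ 0} : Set (Fin 4 → F)) ⊆ {v} := by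
    intro w hw
    exact (hcon w hw).symm
  have h2 := Set.ncard_le_ncard h1 (Set.finite_singleton v)
  rw [ncard_nonzero hF, Set.ncard_singleton] at h2
  omega

theorem orbit_single (hF : Fintype.card F = 2) {v : Fin 4 → F} (hv : v ≠ 0) :
    orbit (GL (Fin 4) F) v = {w : Fin 4 → F | w ≠ 0} := by
  ext a
  constructor
  · rintro ⟨g, rfl⟩
    exact smul_ne_zero_vec g hv
  · intro ha
    obtain ⟨x, hx, hvx⟩ := exists_other hF v
    obtain ⟨y, hy, hay⟩ := exists_other hF a
    obtain ⟨g, h1, -⟩ := exists_gl_pair hF hv hx hvx ha hy hay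
    exact ⟨g, h1⟩

theorem card_stab_single (hF : Fintype.card F = 2) {v : Fin 4 → F} (hv : v ≠ 0) :
    Nat.card (stabilizer (GL (Fin 4) F) v) = 1344 := by
  have h1 := (stabilizer (GL (Fin 4) F) v).card_mul_index
  rw [index_stabilizer, orbit_single hF hv, ncard_nonzero hF, card_GL4F hF] at h1
  omega


theorem eq_of_add_eq_zero (hF : Fintype.card F = 2) {a b : Fin 4 → F} (h : a + b = 0) :
    a = b := by
  have h2 : a = a + b + b := by rw [add_assoc, add_self_vec hF, add_zero]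
  rw [h2, h, zero_add]

theorem add_add_cancel_vec (hF : Fintype.card F = 2) (a b : Fin 4 → F) : a + b + b = a := by
  rw [add_assoc, add_self_vec hF, add_zero]

end general

/-! ### a subgroup of order 2520 -/

section subgroupH

theorem card_stab_sub_dvd {G : Type*} [Group G] {β : Type*} [MulAction G β] (H : Subgroup G)
    (b : β) : Nat.card (stabilizer ↥H b) ∣ Nat.card (stabilizer G b) := by
  let φ : stabilizer ↥H b →* stabilizer G b :=
    { toFun := fun h => ⟨h.1.1, by
        have h2 := h.2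
        rw [mem_stabilizer_iff] at h2 ⊢
        exact h2⟩
      map_one' := rfl
      map_mul' := fun _ _ => rfl }
  apply Subgroup.card_dvd_of_injective φ
  intro a c hac
  apply Subtype.ext
  apply Subtype.ext
  exact congrArg (fun z : stabilizer G b => (z : G)) hac

variable {F : Type*} [Field F] [Fintype F]

set_option linter.unusedSectionVars false

theorem H_transitive (hF : Fintype.card F = 2) (H : Subgroup (GL (Fin 4) F))
    (hH : Nat.card H = 2520) {v : Fin 4 → F} (hv : v ≠ 0) :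
    orbit ↥H v = {w : Fin 4 → F | w ≠ 0} ∧ Nat.card (stabilizer ↥H v) = 168 := by
  have h1 := (stabilizer ↥H v).card_mul_index
  rw [index_stabilizer, hH] at h1
  have h2 : Nat.card (stabilizer ↥H v) ∣ 1344 := by
    rw [← card_stab_single hF hv]
    exact card_stab_sub_dvd H v
  have hsub : orbit ↥H v ⊆ {w : Fin 4 → F | w ≠ 0} := by
    rintro _ ⟨h, rfl⟩
    exact smul_ne_zero_vec (h : GL (Fin 4) F) hv
  have hfin : ({w : Fin 4 → F | w ≠ 0}).Finite := Set.toFinite _
  have h3 := Set.ncard_le_ncard hsub hfin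
  rw [ncard_nonzero hF] at h3
  have h4 : Nat.card (stabilizer ↥H v) ∣ 168 := by
    have h5 : Nat.card (stabilizer ↥H v) ∣ 2520 := ⟨_, h1.symm⟩
    have h6 := Nat.dvd_gcd h5 h2
    have h7 : Nat.gcd 2520 1344 = 168 := by decide
    rwa [h7] at h6
  have h5 : Nat.card (stabilizer ↥H v) ≤ 168 := Nat.le_of_dvd (by norm_num) h4
  have hm : (orbit ↥H v).ncard = 15 := by
    by_contra hne
    have h6 : (orbit ↥H v).ncard ≤ 14 := by omega
    have h7 : Nat.card (stabilizer ↥H v) * (orbit ↥H v).ncard ≤ 168 * 14 :=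
      Nat.mul_le_mul h5 h6
    omega
  have hs : Nat.card (stabilizer ↥H v) = 168 := by
    rw [hm] at h1
    omega
  refine ⟨?_, hs⟩
  apply Set.eq_of_subset_of_ncard_le hsub _ hfin
  rw [ncard_nonzero hF, hm]

theorem K_orbit (hF : Fintype.card F = 2) (H : Subgroup (GL (Fin 4) F))
    (hH : Nat.card H = 2520) {v x : Fin 4 → F} (hv : v ≠ 0) (hx : x ≠ 0) (hvx : v ≠ x) :
    orbit ↥(stabilizer ↥H v) x ⊆ {w : Fin 4 → F | w ≠ 0 ∧ w ≠ v} ∧
      ((orbit ↥(stabilizer ↥H v) x).ncard = 7 ∨ (orbit ↥(stabilizer ↥H v) x).ncard = 14) := by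
  have hsub : orbit ↥(stabilizer ↥H v) x ⊆ {w : Fin 4 → F | w ≠ 0 ∧ w ≠ v} := by
    rintro _ ⟨k, rfl⟩
    have hkv : ((k : ↥H) : GL (Fin 4) F) • v = v := k.2
    refine ⟨smul_ne_zero_vec ((k : ↥H) : GL (Fin 4) F) hx, ?_⟩
    intro h
    apply hvx
    have h2 : ((k : ↥H) : GL (Fin 4) F) • x = ((k : ↥H) : GL (Fin 4) F) • v := by
      rw [hkv]; exact h
    exact (MulAction.injective _ h2).symm
  refine ⟨hsub, ?_⟩
  have hfin : ({w : Fin 4 → F | w ≠ 0 ∧ w ≠ v}).Finite := Set.toFinite _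
  have h3 := Set.ncard_le_ncard hsub hfin
  rw [ncard_two_out hF hv] at h3
  have h1 := (stabilizer ↥(stabilizer ↥H v) x).card_mul_index
  rw [index_stabilizer, (H_transitive hF H hH hv).2] at h1
  have h2 : Nat.card (stabilizer ↥(stabilizer ↥H v) x) ∣ 96 := by
    rw [← card_stab_pair hF hv hx hvx]
    let φ : stabilizer ↥(stabilizer ↥H v) x →* stabilizer (GL (Fin 4) F) (v, x) :=
      { toFun := fun k => ⟨((k : ↥(stabilizer ↥H v)) : ↥H), by
          have h2 : (((k : ↥(stabilizer ↥H v)) : ↥H) : GL (Fin 4) F) • x = x := k.2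
          have h3 : (((k : ↥(stabilizer ↥H v)) : ↥H) : GL (Fin 4) F) • v = v := k.1.2
          rw [mem_stabilizer_iff]
          exact Prod.ext h3 h2⟩
        map_one' := rfl
        map_mul' := fun _ _ => rfl }
    apply Subgroup.card_dvd_of_injective φ
    intro a c hac
    apply Subtype.ext
    apply Subtype.ext
    apply Subtype.ext
    exact congrArg (fun z : stabilizer (GL (Fin 4) F) (v, x) => (z : GL (Fin 4) F)) hac
  have h4 : Nat.card (stabilizer ↥(stabilizer ↥H v) x) ∣ 24 := by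
    have h5 : Nat.card (stabilizer ↥(stabilizer ↥H v) x) ∣ 168 := ⟨_, h1.symm⟩
    have h6 := Nat.dvd_gcd h5 h2
    have h7 : Nat.gcd 168 96 = 24 := by decide
    rwa [h7] at h6
  obtain ⟨c, hc⟩ := h4
  have hpos : 0 < Nat.card (stabilizer ↥(stabilizer ↥H v) x) := by
    rcases Nat.eq_zero_or_pos (Nat.card (stabilizer ↥(stabilizer ↥H v) x)) with h0 | h0
    · rw [h0] at hc; omega
    · exact h0
  have h5 : Nat.card (stabilizer ↥(stabilizer ↥H v) x) * (orbit ↥(stabilizer ↥H v) x).ncard =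
      Nat.card (stabilizer ↥(stabilizer ↥H v) x) * (7 * c) := by
    have e1 : Nat.card (stabilizer ↥(stabilizer ↥H v) x) * (7 * c) =
        7 * (Nat.card (stabilizer ↥(stabilizer ↥H v) x) * c) := by ring
    rw [h1, e1, ← hc]
  have h6 := Nat.eq_of_mul_eq_mul_left hpos h5
  have hc0 : c ≠ 0 := by
    rintro rfl
    omega
  omega

theorem no_shift (hF : Fintype.card F = 2) (H : Subgroup (GL (Fin 4) F)) {v x : Fin 4 → F}
    (hv : v ≠ 0) (h7 : (orbit ↥(stabilizer ↥H v) x).ncard = 7) :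
    x + v ∉ orbit ↥(stabilizer ↥H v) x := by
  classical
  rintro ⟨k₀, hk₀⟩
  have hk₀' : ((k₀ : ↥H) : GL (Fin 4) F) • x = x + v := hk₀
  letI : Fintype ↥(orbit ↥(stabilizer ↥H v) x) := Fintype.ofFinite _
  have hmem : ∀ y : ↥(orbit ↥(stabilizer ↥H v) x),
      (y : Fin 4 → F) + v ∈ orbit ↥(stabilizer ↥H v) x := by
    rintro ⟨_, k, rfl⟩
    have hkv : ((k : ↥H) : GL (Fin 4) F) • v = v := k.2
    refine ⟨k * k₀, ?_⟩
    show (((k * k₀ : ↥(stabilizer ↥H v)) : ↥H) : GL (Fin 4) F) • x = _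
    have e1 : (((k * k₀ : ↥(stabilizer ↥H v)) : ↥H) : GL (Fin 4) F) =
        ((k : ↥H) : GL (Fin 4) F) * ((k₀ : ↥H) : GL (Fin 4) F) := rfl
    rw [e1, mul_smul, hk₀', smul_add_vec, hkv]
    rfl
  let τ : ↥(orbit ↥(stabilizer ↥H v) x) → ↥(orbit ↥(stabilizer ↥H v) x) :=
    fun y => ⟨(y : Fin 4 → F) + v, hmem y⟩
  have hτ : Function.Involutive τ := by
    intro y
    apply Subtype.ext
    show (y : Fin 4 → F) + v + v = y
    exact add_add_cancel_vec hF _ _
  have hsq : (hτ.toPerm τ) ^ 2 = 1 := by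
    ext y
    rw [sq, Equiv.Perm.mul_apply]
    simp only [Function.Involutive.coe_toPerm, Equiv.Perm.coe_one, id_eq]
    rw [hτ y]
  have h2 := Equiv.Perm.two_dvd_card_support hsq
  have hsupp : (hτ.toPerm τ).support = Finset.univ := by
    apply Finset.eq_univ_of_forall
    intro y
    rw [Equiv.Perm.mem_support]
    intro h
    apply hv
    have h3 : (y : Fin 4 → F) + v = y := congrArg Subtype.val h
    have h4 : (y : Fin 4 → F) + v = (y : Fin 4 → F) + 0 := by rw [h3, add_zero]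
    exact add_left_cancel h4
  rw [hsupp, Finset.card_univ, ← Nat.card_eq_fintype_card, Nat.card_coe_set_eq, h7] at h2
  omega

/-- the pair `(a, b)` is carried to `(c, d)` by an element of `H` -/
def Conn (H : Subgroup (GL (Fin 4) F)) (a b c d : Fin 4 → F) : Prop :=
  ∃ h ∈ H, h • a = c ∧ h • b = d

theorem Conn.symm {H : Subgroup (GL (Fin 4) F)} {a b c d : Fin 4 → F} (h : Conn H a b c d) :
    Conn H c d a b := by
  obtain ⟨g, hg, h1, h2⟩ := h
  refine ⟨g⁻¹, H.inv_mem hg, ?_, ?_⟩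
  · rw [← h1, inv_smul_smul]
  · rw [← h2, inv_smul_smul]

theorem Conn.trans {H : Subgroup (GL (Fin 4) F)} {a b c d e f : Fin 4 → F}
    (h : Conn H a b c d) (h' : Conn H c d e f) : Conn H a b e f := by
  obtain ⟨g, hg, h1, h2⟩ := h
  obtain ⟨g', hg', h1', h2'⟩ := h'
  refine ⟨g' * g, H.mul_mem hg' hg, ?_, ?_⟩
  · rw [mul_smul, h1, h1']
  · rw [mul_smul, h2, h2']

theorem conn_of_orbit {H : Subgroup (GL (Fin 4) F)} {v x p q : Fin 4 → F} {g : GL (Fin 4) F}
    (hg : g ∈ H) (hgv : g • v = p) (hy : g⁻¹ • q ∈ orbit ↥(stabilizer ↥H v) x) :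
    Conn H v x p q := by
  obtain ⟨k, hk⟩ := hy
  have hk' : ((k : ↥H) : GL (Fin 4) F) • x = g⁻¹ • q := hk
  have hkv : ((k : ↥H) : GL (Fin 4) F) • v = v := k.2
  refine ⟨g * ((k : ↥H) : GL (Fin 4) F), H.mul_mem hg (k : ↥H).2, ?_, ?_⟩
  · rw [mul_smul, hkv, hgv]
  · rw [mul_smul, hk', smul_inv_smul]

theorem orbit_of_conn {H : Subgroup (GL (Fin 4) F)} {v x y : Fin 4 → F}
    (h : Conn H v x v y) : y ∈ orbit ↥(stabilizer ↥H v) x := by
  obtain ⟨g, hg, h1, h2⟩ := h
  exact ⟨⟨⟨g, hg⟩, h1⟩, h2⟩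

theorem two_transitive (hF : Fintype.card F = 2) (H : Subgroup (GL (Fin 4) F))
    (hH : Nat.card H = 2520) :
    ∀ p q p' q' : Fin 4 → F, p ≠ 0 → q ≠ 0 → p ≠ q → p' ≠ 0 → q' ≠ 0 → p' ≠ q' →
      Conn H p q p' q' := by
  by_contra hcon
  -- transitivity on nonzero vectors
  have htr : ∀ a c : Fin 4 → F, a ≠ 0 → c ≠ 0 → ∃ h ∈ H, h • a = c := by
    intro a c ha hc
    have h1 : c ∈ orbit ↥H a := by
      rw [(H_transitive hF H hH ha).1]
      exact hc
    obtain ⟨h, hh⟩ := h1
    exact ⟨(h : GL (Fin 4) F), h.2, hh⟩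
  -- every pair is reached from `(v, x)` through the orbit of the stabilizer
  have hreach : ∀ v x p q : Fin 4 → F, v ≠ 0 → p ≠ 0 → q ≠ 0 → p ≠ q →
      (∀ y : Fin 4 → F, y ≠ 0 → y ≠ v → y ∈ orbit ↥(stabilizer ↥H v) x) → Conn H v x p q := by
    intro v x p q hv hp hq hpq hall
    obtain ⟨g, hg, hgv⟩ := htr v p hv hp
    apply conn_of_orbit hg hgv
    apply hall
    · exact smul_ne_zero_vec _ hq
    · intro h
      apply hpq
      rw [← hgv, ← h, smul_inv_smul]
  -- all the orbits of the point stabilizers have size 7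
  have h7 : ∀ v x : Fin 4 → F, v ≠ 0 → x ≠ 0 → v ≠ x →
      (orbit ↥(stabilizer ↥H v) x).ncard = 7 := by
    intro v x hv hx hvx
    obtain ⟨hsub, h | h⟩ := K_orbit hF H hH hv hx hvx
    · exact h
    · exfalso
      apply hcon
      have hO : orbit ↥(stabilizer ↥H v) x = {w : Fin 4 → F | w ≠ 0 ∧ w ≠ v} := by
        apply Set.eq_of_subset_of_ncard_le hsub _ (Set.toFinite _)
        rw [ncard_two_out hF hv, h]
      have hall : ∀ y : Fin 4 → F, y ≠ 0 → y ≠ v → y ∈ orbit ↥(stabilizer ↥H v) x := by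
        intro y hy hyv
        rw [hO]
        exact ⟨hy, hyv⟩
      intro p q p' q' hp hq hpq hp' hq' hpq'
      exact (hreach v x p q hv hp hq hpq hall).symm.trans (hreach v x p' q' hv hp' hq' hpq' hall)
  -- no element fixes `v` and adds `v` to `x`
  have hno : ∀ v x : Fin 4 → F, v ≠ 0 → x ≠ 0 → v ≠ x → ¬ Conn H v x v (x + v) := by
    intro v x hv hx hvx h
    exact no_shift hF H hv (h7 v x hv hx hvx) (orbit_of_conn h)
  -- the two orbits cover everything
  have hcov : ∀ v x p q : Fin 4 → F, v ≠ 0 → x ≠ 0 → v ≠ x → p ≠ 0 → q ≠ 0 → p ≠ q →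
      Conn H v x p q ∨ Conn H v (x + v) p q := by
    intro v x p q hv hx hvx hp hq hpq
    have hxv0 : x + v ≠ 0 := fun h => hvx (eq_of_add_eq_zero hF h).symm
    have hxvv : v ≠ x + v := by
      intro h
      apply hx
      have h2 : x + v = 0 + v := by rw [zero_add]; exact h.symm
      exact add_right_cancel h2
    obtain ⟨g, hg, hgv⟩ := htr v p hv hp
    have hy0 : g⁻¹ • q ≠ 0 := smul_ne_zero_vec _ hq
    have hyv : g⁻¹ • q ≠ v := by
      intro h
      apply hpq
      rw [← hgv, ← h, smul_inv_smul]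
    have hdisj : Disjoint (orbit ↥(stabilizer ↥H v) x) (orbit ↥(stabilizer ↥H v) (x + v)) := by
      rw [Set.disjoint_left]
      intro y hy1 hy2
      have e1 := orbit_eq_iff.mpr hy1
      have e2 := orbit_eq_iff.mpr hy2
      apply no_shift hF H hv (h7 v x hv hx hvx)
      rw [← e1, e2]
      exact mem_orbit_self _
    have hsub : orbit ↥(stabilizer ↥H v) x ∪ orbit ↥(stabilizer ↥H v) (x + v) ⊆
        {w : Fin 4 → F | w ≠ 0 ∧ w ≠ v} :=
      Set.union_subset (K_orbit hF H hH hv hx hvx).1 (K_orbit hF H hH hv hxv0 hxvv).1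
    have hcard : (orbit ↥(stabilizer ↥H v) x ∪ orbit ↥(stabilizer ↥H v) (x + v)).ncard = 14 := by
      rw [Set.ncard_union_eq hdisj (Set.toFinite _) (Set.toFinite _), h7 v x hv hx hvx,
        h7 v (x + v) hv hxv0 hxvv]
    have hU : orbit ↥(stabilizer ↥H v) x ∪ orbit ↥(stabilizer ↥H v) (x + v) =
        {w : Fin 4 → F | w ≠ 0 ∧ w ≠ v} := by
      apply Set.eq_of_subset_of_ncard_le hsub _ (Set.toFinite _)
      rw [ncard_two_out hF hv, hcard]
    have hy : g⁻¹ • q ∈ orbit ↥(stabilizer ↥H v) x ∪ orbit ↥(stabilizer ↥H v) (x + v) := by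
      rw [hU]
      exact ⟨hy0, hyv⟩
    rcases hy with hy | hy
    · exact Or.inl (conn_of_orbit hg hgv hy)
    · exact Or.inr (conn_of_orbit hg hgv hy)
  -- an involution of `H` and a pair it swaps
  have h2dvd : 2 ∣ Nat.card ↥H := by
    rw [hH]
    norm_num
  have : Fact (Nat.Prime 2) := ⟨Nat.prime_two⟩
  obtain ⟨t, ht⟩ := exists_prime_orderOf_dvd_card' 2 h2dvd
  have ht1 : t ≠ 1 := by
    rintro rfl
    rw [orderOf_one] at ht
    omega
  have htt : t * t = 1 := by
    rw [← sq, ← ht]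
    exact pow_orderOf_eq_one t
  have hT1 : (t : GL (Fin 4) F) ≠ 1 := fun h => ht1 (Subtype.ext h)
  have hTT : (t : GL (Fin 4) F) * (t : GL (Fin 4) F) = 1 := congrArg Subtype.val htt
  obtain ⟨u, hu⟩ : ∃ u : Fin 4 → F, (t : GL (Fin 4) F) • u ≠ u := by
    by_contra hall
    push Not at hall
    exact hT1 (eq_one_of_forall_smul _ hall)
  have hu0 : u ≠ 0 := by
    rintro rfl
    exact hu (smul_zero_vec _)
  have hu'0 : (t : GL (Fin 4) F) • u ≠ 0 := smul_ne_zero_vec _ hu0
  have hTu' : (t : GL (Fin 4) F) • ((t : GL (Fin 4) F) • u) = u := by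
    rw [← mul_smul, hTT, one_smul]
  have hswap0 : Conn H u ((t : GL (Fin 4) F) • u) ((t : GL (Fin 4) F) • u) u :=
    ⟨(t : GL (Fin 4) F), t.2, rfl, hTu'⟩
  -- every pair of distinct nonzero vectors is swapped by an element of `H`
  have hswap : ∀ a b : Fin 4 → F, a ≠ 0 → b ≠ 0 → a ≠ b → Conn H a b b a := by
    intro a b ha hb hab
    set u' := (t : GL (Fin 4) F) • u with hu'
    have huu' : u ≠ u' := fun h => hu h.symm
    have hw0 : u' + u ≠ 0 := fun h => huu' (eq_of_add_eq_zero hF h).symm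
    have hwu : u' + u ≠ u := by
      intro h
      apply hu'0
      have h2 : u' + u = 0 + u := by rw [zero_add]; exact h
      exact add_right_cancel h2
    rcases hcov u u' a b hu0 hu'0 huu' ha hb hab with h | h
    · exact (h.symm.trans hswap0).trans (by
        obtain ⟨g, hg, h1, h2⟩ := h
        exact ⟨g, hg, h2, h1⟩)
    · -- an element swapping `u` and `u' + u`
      have hs : Conn H u (u' + u) (u' + u) u := by
        rcases hcov u u' (u' + u) u hu0 hu'0 huu' hw0 hu0 hwu with h' | h'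
        · exfalso
          apply hno u u' hu0 hu'0 huu'
          obtain ⟨g, hg, h1, h2⟩ := h'
          obtain ⟨g0, hg0, h10, h20⟩ := hswap0
          exact ⟨g * g0, H.mul_mem hg hg0, by rw [mul_smul, h10, h2], by rw [mul_smul, h20, h1]⟩
        · exact h'
      exact (h.symm.trans hs).trans (by
        obtain ⟨g, hg, h1, h2⟩ := h
        exact ⟨g, hg, h2, h1⟩)
  -- the final contradiction on a line
  obtain ⟨a, ha, -⟩ := exists_other hF (0 : Fin 4 → F)
  obtain ⟨b, hb, hab⟩ := exists_other hF a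
  have hc0 : a + b ≠ 0 := fun h => hab (eq_of_add_eq_zero hF h)
  have hca : a + b ≠ a := by
    intro h
    apply hb
    have h2 : a + b = a + 0 := by rw [add_zero]; exact h
    exact add_left_cancel h2
  have hcb : a + b ≠ b := by
    intro h
    apply ha
    have h2 : a + b = 0 + b := by rw [zero_add]; exact h
    exact add_right_cancel h2
  rcases hcov a b b (a + b) ha hb hab hb hc0 (fun h => hcb h.symm) with h | h
  · -- `(a, b) ↦ (b, a + b)`; compose with the swap of `a` and `b`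
    apply hno b a hb ha (fun h' => hab h'.symm)
    obtain ⟨g, hg, h1, h2⟩ := h
    obtain ⟨s, hs, hs1, hs2⟩ := hswap a b ha hb hab
    exact ⟨g * s, H.mul_mem hg hs, by rw [mul_smul, hs2, h1], by rw [mul_smul, hs1, h2]⟩
  · -- `(a, b + a) ↦ (b, a + b)`
    apply hno (a + b) a hc0 ha hca
    obtain ⟨g, hg, h1, h2⟩ := h
    refine ⟨g, hg, ?_, ?_⟩
    · rw [add_comm a b]; exact h2.trans (add_comm a b)
    · rw [h1, add_comm a (a + b), add_assoc, add_comm b a, ← add_assoc, add_self_vec hF, zero_add]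

end subgroupH


/-! ### a copy of `A₇` -/

theorem card_alt (n : ℕ) (hn : 2 ≤ n) :
    2 * Nat.card (alternatingGroup (Fin n)) = n.factorial := by
  haveI : Nontrivial (Fin n) := Fin.nontrivial_iff_two_le.mpr hn
  rw [Nat.card_eq_fintype_card, two_mul_card_alternatingGroup, Fintype.card_perm,
    Fintype.card_fin]

theorem card_A7 : Nat.card (alternatingGroup (Fin 7)) = 2520 := by
  have h := card_alt 7 (by norm_num)
  have h2 : (7 : ℕ).factorial = 5040 := by decide
  omega

theorem card_A8 : Nat.card (alternatingGroup (Fin 8)) = 20160 := by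
  have h := card_alt 8 (by norm_num)
  have h2 : (8 : ℕ).factorial = 40320 := by decide
  omega

theorem exists_A7 {F : Type*} [Field F] [Fintype F] (hF : Fintype.card F = 2) :
    ∃ H : Subgroup (GL (Fin 4) F), Nonempty (H ≃* alternatingGroup (Fin 7)) := by
  classical
  -- `A₇ → A₈`
  let ι₀ : Equiv.Perm (Fin 7) →* Equiv.Perm (Fin 8) :=
    Equiv.Perm.extendDomainHom (finSuccAboveEquiv (Fin.last 7))
  have hι₀ : Function.Injective ι₀ := Equiv.Perm.extendDomainHom_injective _
  have hmem : ∀ σ : alternatingGroup (Fin 7), ι₀ (σ : Equiv.Perm (Fin 7)) ∈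
      alternatingGroup (Fin 8) := by
    intro σ
    rw [Equiv.Perm.mem_alternatingGroup]
    have h1 : Equiv.Perm.sign (σ : Equiv.Perm (Fin 7)) = 1 :=
      Equiv.Perm.mem_alternatingGroup.mp σ.2
    rw [← h1]
    exact Equiv.Perm.sign_extendDomain _ _
  let ι : alternatingGroup (Fin 7) →* alternatingGroup (Fin 8) :=
    (ι₀.comp (alternatingGroup (Fin 7)).subtype).codRestrict (alternatingGroup (Fin 8)) hmem
  have hι : Function.Injective ι := by
    intro a b hab
    apply Subtype.ext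
    apply hι₀
    exact congrArg Subtype.val hab
  -- `A₈ ≃ GL₄(2)`
  obtain ⟨f₀, hf₀⟩ := Cfsg.Agent.Lib.Helper60.exists_GL4_to_A8
  have hbij : Function.Bijective f₀ := by
    apply hf₀.bijective_of_nat_card_le
    rw [card_A8, Cfsg.Agent.Lib.Helper60.card_GL4]
  let e₀ : GL (Fin 4) (ZMod 2) ≃* alternatingGroup (Fin 8) := MulEquiv.ofBijective f₀ hbij
  -- change of field
  let ρ : ZMod 2 ≃+* F := ZMod.ringEquivOfPrime F Nat.prime_two hF
  let m : GL (Fin 4) (ZMod 2) ≃* GL (Fin 4) F :=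
    Units.mapEquiv (ρ.mapMatrix (m := Fin 4)).toMulEquiv
  let j : alternatingGroup (Fin 7) →* GL (Fin 4) F :=
    m.toMonoidHom.comp (e₀.symm.toMonoidHom.comp ι)
  have hj : Function.Injective j := by
    intro a b hab
    apply hι
    apply e₀.symm.injective
    apply m.injective
    exact hab
  exact ⟨j.range, ⟨(MonoidHom.ofInjective hj).symm⟩⟩

theorem main {F : Type*} [Field F] [Fintype F] (hF : Fintype.card F = 2) :
    (∃ H : Subgroup (Matrix.GeneralLinearGroup (Fin 4) F),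
        Nonempty (H ≃* alternatingGroup (Fin 7))) ∧
      ∀ H : Subgroup (Matrix.GeneralLinearGroup (Fin 4) F),
        Nonempty (H ≃* alternatingGroup (Fin 7)) →
        ∀ v w v' w' : Fin 4 → F, v ≠ 0 → w ≠ 0 → v ≠ w → v' ≠ 0 → w' ≠ 0 → v' ≠ w' →
          ∃ g ∈ H, (g : Matrix (Fin 4) (Fin 4) F).mulVec v = v' ∧
            (g : Matrix (Fin 4) (Fin 4) F).mulVec w = w' := by
  refine ⟨exists_A7 hF, ?_⟩
  rintro H ⟨e⟩ v w v' w' hv hw hvw hv' hw' hvw'
  have hH : Nat.card H = 2520 := by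
    rw [Nat.card_congr e.toEquiv, card_A7]
  exact two_transitive hF H hH v w v' w' hv hw hvw hv' hw' hvw'

end Cfsg.Agent.Lib.Helper60.A7GL4
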