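import Mathlib

/-!
# S0997 (project BW, helper5), piece BW-AR4

A pure real / integer inequality: from the class-count identity and the column bound one gets
`2 ^ b ≤ p`.
-/

set_option autoImplicit false

namespace Cfsg.Agent.Lib.Helper5.BW

/-- BW-AR4 -/
theorem core_C {ι : Type*} (s : Finset ι) (a : ι → ℤ) (d : ι → ℕ) (σ : ι → ℤ) (τ : ℤ)
    (p b f c' N : ℕ) (hp : 3 ≤ p) (hf : 2 * f = p + 1) (hc' : 1 ≤ c')
    (hσ : ∀ i ∈ s, σ i = 1 ∨ σ i = -1)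
    (hd : ∀ i ∈ s, σ i = 1 → p + 1 ≤ d i)
    (hz : ∀ i ∈ s, σ i = -1 → a i = 0)
    (hcol : 1 + ∑ i ∈ s, (a i) ^ 2 + 2 * τ ^ 2 ≤ ((2 ^ b * c' : ℕ) : ℤ))
    (hN : N = 0 ∨ N = p)
    (hform : (N : ℝ) * ((2 ^ b * c' : ℕ) : ℝ) ^ 2 = ((p * 2 ^ b * f : ℕ) : ℝ) *
      (1 + ∑ i ∈ s, (σ i : ℝ) * (a i : ℝ) ^ 2 / (d i : ℝ) + (τ : ℝ) ^ 2 / (f : ℝ))) :
    2 ^ b ≤ p := by
  have hP : (3 : ℝ) ≤ (p : ℝ) := by exact_mod_cast hp
  have hfr : 2 * (f : ℝ) = (p : ℝ) + 1 := by exact_mod_cast hf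
  have hfpos : (0 : ℝ) < (f : ℝ) := by linarith
  have hf0 : (f : ℝ) ≠ 0 := hfpos.ne'
  have hE : (1 : ℝ) ≤ (2 : ℝ) ^ b := one_le_pow₀ (by norm_num)
  have hcr : (1 : ℝ) ≤ (c' : ℝ) := by exact_mod_cast hc'
  have hcolR : 1 + ∑ i ∈ s, (a i : ℝ) ^ 2 + 2 * (τ : ℝ) ^ 2 ≤ (2 : ℝ) ^ b * (c' : ℝ) := by
    have h := (Int.cast_le (R := ℝ)).mpr hcol
    push_cast at h
    exact h
  obtain ⟨S, hS⟩ : ∃ S : ℝ, S = ∑ i ∈ s, (σ i : ℝ) * (a i : ℝ) ^ 2 / (d i : ℝ) := ⟨_, rfl⟩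
  have hS0 : 0 ≤ S := by
    rw [hS]
    apply Finset.sum_nonneg
    intro i hi
    rcases hσ i hi with h | h
    · rw [h]
      push_cast
      rw [one_mul]
      positivity
    · rw [hz i hi h]
      simp
  have hS1 : S ≤ (∑ i ∈ s, (a i : ℝ) ^ 2) / (2 * (f : ℝ)) := by
    rw [hS, Finset.sum_div]
    apply Finset.sum_le_sum
    intro i hi
    rcases hσ i hi with h | h
    · rw [h]
      push_cast
      rw [one_mul]
      have hdi : 2 * (f : ℝ) ≤ (d i : ℝ) := by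
        have h1 := hd i hi h
        have h' : ((p + 1 : ℕ) : ℝ) ≤ (d i : ℝ) := by exact_mod_cast h1
        push_cast at h'
        linarith
      exact div_le_div_of_nonneg_left (sq_nonneg _) (by linarith) hdi
    · rw [hz i hi h]
      simp
  have hcastL : ((2 ^ b * c' : ℕ) : ℝ) = (2 : ℝ) ^ b * (c' : ℝ) := by push_cast; ring
  have hcastR : ((p * 2 ^ b * f : ℕ) : ℝ) = (p : ℝ) * (2 : ℝ) ^ b * (f : ℝ) := by
    push_cast; ring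
  rw [hcastL, hcastR, ← hS] at hform
  have hτ0 : 0 ≤ (τ : ℝ) ^ 2 / (f : ℝ) := by positivity
  -- `N = p`
  have hNp : N = p := by
    rcases hN with h | h
    · exfalso
      rw [h] at hform
      simp only [Nat.cast_zero, zero_mul] at hform
      have hpos : 0 < (p : ℝ) * (2 : ℝ) ^ b * (f : ℝ) * (1 + S + (τ : ℝ) ^ 2 / (f : ℝ)) := by
        apply mul_pos
        · positivity
        · linarith
      linarith
    · exact h
  rw [hNp] at hform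
  have hkey : (2 : ℝ) ^ b * (c' : ℝ) ^ 2 = (f : ℝ) * (1 + S + (τ : ℝ) ^ 2 / (f : ℝ)) := by
    have hpE : (0 : ℝ) < (p : ℝ) * (2 : ℝ) ^ b := by positivity
    apply mul_left_cancel₀ hpE.ne'
    linear_combination hform
  have hkey2 : (2 : ℝ) ^ b * (c' : ℝ) ^ 2 = (f : ℝ) + (f : ℝ) * S + (τ : ℝ) ^ 2 := by
    rw [hkey]
    field_simp
  have hfS : (f : ℝ) * S ≤ (∑ i ∈ s, (a i : ℝ) ^ 2) / 2 := by
    have h1 := mul_le_mul_of_nonneg_left hS1 hfpos.le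
    have e : (f : ℝ) * ((∑ i ∈ s, (a i : ℝ) ^ 2) / (2 * (f : ℝ))) =
        (∑ i ∈ s, (a i : ℝ) ^ 2) / 2 := by
      field_simp
    linarith
  have hmain : 2 * ((2 : ℝ) ^ b * (c' : ℝ) ^ 2) ≤ (p : ℝ) + (2 : ℝ) ^ b * (c' : ℝ) := by
    rw [hkey2]
    linarith
  have hfin : (2 : ℝ) ^ b ≤ (p : ℝ) := by
    by_contra hlt
    push Not at hlt
    have h1 : (2 : ℝ) ^ b * (c' : ℝ) ≤ (2 : ℝ) ^ b * (c' : ℝ) ^ 2 := by
      have h2 : (c' : ℝ) ≤ (c' : ℝ) ^ 2 := by nlinarith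
      exact mul_le_mul_of_nonneg_left h2 (by linarith)
    have h3 : (2 : ℝ) ^ b ≤ (2 : ℝ) ^ b * (c' : ℝ) := by
      have h4 := mul_le_mul_of_nonneg_left hcr (show (0 : ℝ) ≤ (2 : ℝ) ^ b by linarith)
      linarith
    linarith
  exact_mod_cast hfin

end Cfsg.Agent.Lib.Helper5.BW
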