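import Mathlib
import Cfsg.Agent.Lib.Helper70.D11Defs
import Cfsg.Agent.S0713

set_option autoImplicit false

/-!
# S0679, piece JWFREE (helper60 for helper70)

A transitive group of degree 11 containing `c0` and not containing `A₁₁` has no Jordan witness.
-/

namespace Cfsg.Agent.Lib.Helper60.D11

open Equiv Cfsg.Agent.Lib.Helper70.D11

theorem c0_pow_zero_apply : ∀ x : Fin 11, (c0 ^ x.val) 0 = x := by decide

theorem pretrans_of_c0' (G : Subgroup P11) (hc : c0 ∈ G) :
    MulAction.IsPretransitive G (Fin 11) := by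
  refine ⟨fun x y => ?_⟩
  refine ⟨⟨c0 ^ y.val * (c0 ^ x.val)⁻¹, G.mul_mem (G.pow_mem hc _) (G.inv_mem (G.pow_mem hc _))⟩, ?_⟩
  show (c0 ^ y.val * (c0 ^ x.val)⁻¹) x = y
  rw [Perm.mul_apply]
  have hx : (c0 ^ x.val)⁻¹ x = 0 := by
    rw [Perm.inv_eq_iff_eq]
    exact (c0_pow_zero_apply x).symm
  rw [hx]
  exact c0_pow_zero_apply y

theorem noJW_of (G : Subgroup P11) (hc : c0 ∈ G) (hA : ¬ alternatingGroup (Fin 11) ≤ G) :
    NoJW G := by
  intro g hg hJ
  obtain ⟨k, p, hp, hcard, hpow⟩ := hJ
  apply hA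
  have hprime : p.Prime := by rcases hp with rfl | rfl | rfl <;> norm_num
  have hp11 : p + 3 ≤ 11 := by rcases hp with rfl | rfl | rfl <;> norm_num
  have htrans : MulAction.IsPretransitive G (Fin 11) := pretrans_of_c0' G hc
  have hprim : MulAction.IsPreprimitive G (Fin 11) :=
    MulAction.IsPreprimitive.of_prime_card (by
      rw [Nat.card_eq_fintype_card, Fintype.card_fin]; norm_num)
  have hh : g ^ k ∈ G := G.pow_mem hg k
  have hne : g ^ k ≠ 1 := by
    intro h
    rw [h] at hcard
    simp at hcard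
    have := hprime.pos
    omega
  have : Fact p.Prime := ⟨hprime⟩
  have hord : orderOf (g ^ k) = p := orderOf_eq_prime hpow hne
  have hcyc : (g ^ k).IsCycle := by
    apply Equiv.Perm.isCycle_of_prime_order
    · rw [hord]; exact hprime
    · rw [hord, hcard]
      have := hprime.pos
      omega
  exact Cfsg.Agent.S0713.result G hprim hprime (by simp) (by simpa using hp11) hcyc hcard hh

end Cfsg.Agent.Lib.Helper60.D11
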