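import Mathlib

/-!
# F15-NT: arithmetic with powers of three (piece of S1615)
-/

set_option autoImplicit false

namespace Cfsg.Agent.Lib.Helper60.F15

theorem f15_nt_sq_aux : ∀ (t c s : ℕ), c % 3 = 2 → s * s = 3 ^ t * c → False := by
  intro t
  induction t using Nat.strong_induction_on with
  | _ t ih =>
    intro c s hc hs
    rcases t with _ | _ | t
    · rw [pow_zero, one_mul] at hs
      have h1 : (s * s) % 3 = 2 := by rw [hs]; exact hc
      rw [Nat.mul_mod] at h1
      have h2 : s % 3 < 3 := Nat.mod_lt _ (by norm_num)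
      interval_cases (s % 3) <;> simp at h1
    · rw [zero_add, pow_one] at hs
      have h3 : 3 ∣ s * s := ⟨c, hs⟩
      have h3' : 3 ∣ s := by
        rcases (Nat.Prime.dvd_mul Nat.prime_three).1 h3 with h | h <;> exact h
      obtain ⟨s', rfl⟩ := h3'
      have : c = 3 * (s' * s') := by nlinarith
      omega
    · have h3 : 3 ∣ s * s := ⟨3 ^ (t + 1) * c, by rw [hs]; ring⟩
      have h3' : 3 ∣ s := by
        rcases (Nat.Prime.dvd_mul Nat.prime_three).1 h3 with h | h <;> exact h
      obtain ⟨s', rfl⟩ := h3'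
      have h4 : s' * s' = 3 ^ t * c := by
        have h5 : 9 * (s' * s') = 9 * (3 ^ t * c) := by
          have : 3 ^ (t + 1 + 1) = 9 * 3 ^ t := by ring
          rw [this] at hs
          nlinarith
        exact Nat.eq_of_mul_eq_mul_left (by norm_num) h5
      exact ih t (by omega) c s' hc h4

theorem f15_nt {k μ r t s : ℕ} (hk : k = 3 ^ r) (hμ : μ = 3 ^ t) (hlt : μ < k)
    (hs : s * s = μ * μ + 4 * (k - μ)) (hdvd : s ∣ k * (k + μ - 3)) : k = 3 := by
  have htr : t < r := by
    rw [hk, hμ] at hlt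
    exact (Nat.pow_lt_pow_iff_right (by norm_num)).1 hlt
  rcases Nat.eq_zero_or_pos t with ht0 | htpos
  · -- μ = 1
    subst ht0
    rw [pow_zero] at hμ
    subst hμ
    have hk2 : 2 ≤ k := hlt
    have hs' : s * s + 3 = 4 * k := by omega
    have hdvd' : s ∣ k * (k - 2) := by
      have : k + 1 - 3 = k - 2 := by omega
      rwa [this] at hdvd
    by_cases h3 : 3 ∣ s
    · obtain ⟨s', rfl⟩ := h3
      rcases r with _ | _ | r
      · omega
      · rw [hk]; norm_num
      · exfalso
        have : k = 9 * 3 ^ r := by rw [hk]; ring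
        have h9 : 9 * (s' * s') + 3 = 36 * 3 ^ r := by nlinarith
        omega
    · exfalso
      have hcop : Nat.Coprime s k := by
        rw [hk]
        exact Nat.Coprime.pow_right r
          (Nat.Coprime.symm ((Nat.Prime.coprime_iff_not_dvd Nat.prime_three).2 h3))
      have h1 : s ∣ k - 2 := hcop.dvd_of_dvd_mul_left hdvd'
      have h2 : s ∣ 4 * (k - 2) := Dvd.dvd.mul_left h1 4
      have h3' : s ∣ s * s := Dvd.intro _ rfl
      have h5 : s * s - 4 * (k - 2) = 5 := by omega
      have h6 : s ∣ 5 := by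
        rw [← h5]
        exact Nat.dvd_sub h3' h2
      rcases (Nat.dvd_prime (by norm_num : Nat.Prime 5)).1 h6 with rfl | rfl
      · omega
      · have hk7 : k = 7 := by omega
        rw [hk] at hk7
        rcases r with _ | _ | r
        · norm_num at hk7
        · norm_num at hk7
        · have : 3 ^ (r + 1 + 1) = 9 * 3 ^ r := by ring
          have hpos : 0 < 3 ^ r := by positivity
          omega
  · exfalso
    obtain ⟨j, rfl⟩ : ∃ j, r = t + (j + 1) := ⟨r - t - 1, by omega⟩
    obtain ⟨t', rfl⟩ : ∃ t', t = t' + 1 := ⟨t - 1, by omega⟩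
    have hkμ : k - μ = 3 ^ (t' + 1) * (3 * 3 ^ j - 1) := by
      rw [hk, hμ, Nat.mul_sub, mul_one]
      congr 1
      ring
    have hm : 0 < 3 ^ j := by positivity
    have hs2 : s * s = 3 ^ (t' + 1) * (3 ^ (t' + 1) + 4 * (3 * 3 ^ j - 1)) := by
      rw [hs, hkμ, hμ]
      ring
    refine f15_nt_sq_aux (t' + 1) (3 ^ (t' + 1) + 4 * (3 * 3 ^ j - 1)) s ?_ hs2
    have : 3 ^ (t' + 1) = 3 * 3 ^ t' := by ring
    rw [this]
    omega

end Cfsg.Agent.Lib.Helper60.F15
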