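import Mathlib
import Cfsg.Prelude.Def_ClassicalGeometry
import Cfsg.Agent.S0245
import Cfsg.Agent.Lib.Helper98.F75Defs

/-!
# S5975 (project F75, helper98), piece F75-SPCARD

The order of `Cfsg.spGL d F` (the symplectic group inside `GL`), from the landed order formula
for `Matrix.symplecticGroup`.
-/

set_option autoImplicit false

namespace Cfsg.Agent.Lib.Helper98.F75

open Matrix Polynomial

theorem f75spcard_mem_iff {F : Type*} [Field F] (d : ℕ) (g : GL (Fin d ⊕ Fin d) F) :
    g ∈ Cfsg.spGL d F ↔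
      (g : Matrix (Fin d ⊕ Fin d) (Fin d ⊕ Fin d) F) ∈ Matrix.symplecticGroup (Fin d) F := by
  constructor
  · intro h
    have h1 := Cfsg.Agent.S0245.mem_of_isometry d
      (Matrix.toLin' (g : Matrix (Fin d ⊕ Fin d) (Fin d ⊕ Fin d) F)) (fun x y => by
        rw [Cfsg.Agent.Lib.Helper18.sympB_eq_sympForm, Cfsg.Agent.Lib.Helper18.sympB_eq_sympForm,
          Matrix.toLin'_apply, Matrix.toLin'_apply]
        exact h x y)
    rwa [LinearMap.toMatrix'_toLin'] at h1
  · intro h x y
    have h1 := Cfsg.Agent.Lib.Helper18.symplectic_isometry d _ h x y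
    rw [Cfsg.Agent.Lib.Helper18.sympB_eq_sympForm, Cfsg.Agent.Lib.Helper18.sympB_eq_sympForm,
      Matrix.toLin'_apply, Matrix.toLin'_apply] at h1
    exact h1

/-! ### F75-SPCARD -/
theorem card_spGL {F : Type*} [Field F] [Fintype F] {q : ℕ} (hq : Fintype.card F = q) (d : ℕ) :
    Nat.card ↥(Cfsg.spGL d F) = q ^ (d ^ 2) * ∏ j ∈ Finset.range d, (q ^ (2 * (j + 1)) - 1) := by
  rw [← Cfsg.Agent.S0245.result hq d]
  refine Nat.card_congr ?_
  exact
    { toFun := fun g => ⟨(g.1 : Matrix (Fin d ⊕ Fin d) (Fin d ⊕ Fin d) F),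
        (f75spcard_mem_iff d g.1).mp g.2⟩
      invFun := fun A => ⟨(Matrix.symplecticGroup (Fin d) F).subtype.toHomUnits A,
        (f75spcard_mem_iff d _).mpr A.2⟩
      left_inv := fun g => Subtype.ext (Units.ext rfl)
      right_inv := fun A => Subtype.ext rfl }

end Cfsg.Agent.Lib.Helper98.F75
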