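import Cfsg.Agent.Lib.Helper98.T73Defs

/-!
# Project H74 (S5974, helper98): piece C4 (`cpx_fix_four`), with the sibling piece SUM
(`subtyp_sup`) as a hypothesis: `cpx_fix_four_of`

`g² = -1`, `-1` a nonsquare: for a nonsingular `v` the plane `⟨v, g v⟩` is invariant and
anisotropic (type `-`); peeling `k + 1` such planes (`k` odd) gives an invariant nondegenerate
subspace of dimension `2k + 2` and type `+`.
-/

set_option autoImplicit false

namespace Cfsg.Agent.Lib.Helper98.H74

open Cfsg.Agent.Lib.Helper47 Cfsg.Agent.Lib.Helper98.T73 Module Polynomial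

universe u

variable {F : Type u} [Field F] [Fintype F] {V : Type u} [AddCommGroup V] [Module F V]
  [FiniteDimensional F V] {Q : V → F} {B : V → V → F}

omit [Fintype F] [FiniteDimensional F V] in
/-- `g (g v) = -v`. -/
theorem c4_gg {g : Module.End F V} (hg : g * g = -1) (v : V) : g (g v) = -v := by
  have h := congrArg (fun f : Module.End F V => f v) hg
  simpa using h

omit [Fintype F] [FiniteDimensional F V] in
/-- `B v (g v) = 0`. -/
theorem c4_perp (h2 : (2 : F) ≠ 0) (hQ : IsQuad Q B) {g : Module.End F V} (hgQ : QI Q g)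
    (hg : g * g = -1) (v : V) : B v (g v) = 0 := by
  have h1 : B (g v) (g (g v)) = B v (g v) := hQ.isometry hQ g hgQ v (g v)
  rw [c4_gg hg, hQ.form.neg_right, sym_comm hQ.form v (g v)] at h1
  have h3 : (2 : F) * B v (g v) = 0 := by linear_combination -h1
  exact (mul_eq_zero.mp h3).resolve_left h2

omit [Fintype F] [FiniteDimensional F V] in
/-- The value of `Q` on the plane `⟨v, g v⟩`. -/
theorem c4_Q (h2 : (2 : F) ≠ 0) (hQ : IsQuad Q B) {g : Module.End F V} (hgQ : QI Q g)
    (hg : g * g = -1) (v : V) (a b : F) : Q (a • v + b • g v) = (a ^ 2 + b ^ 2) * Q v := by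
  rw [hQ.polar, hQ.smul, hQ.smul, hgQ v, hQ.form.smul_left, hQ.form.smul_right,
    c4_perp h2 hQ hgQ hg v]
  simp only [RingHom.id_apply, mul_zero, add_zero]
  ring

omit [Fintype F] in
/-- The binary form `a² + b²` is anisotropic when `-1` is not a square. -/
theorem c4_aniso (hns : ¬ IsSquare (-1 : F)) (a b : F) (h : a ^ 2 + b ^ 2 = 0) :
    a = 0 ∧ b = 0 := by
  by_cases hb : b = 0
  · subst hb
    have h1 : a ^ 2 = 0 := by
      rw [← h]
      ring
    exact ⟨pow_eq_zero_iff (two_ne_zero) |>.mp h1, rfl⟩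
  · exfalso
    apply hns
    refine ⟨a / b, ?_⟩
    field_simp
    linear_combination -h

/-- A nonzero invariant nondegenerate subspace contains an invariant anisotropic plane. -/
theorem c4_plane (hf : QFacts F) (h2 : (2 : F) ≠ 0) (hns : ¬ IsSquare (-1 : F))
    (hQ : IsQuad Q B) {g : Module.End F V} (hgQ : QI Q g) (hg : g * g = -1)
    (Y : Submodule F V) (hYg : Y.map g ≤ Y) (hYnd : Nondeg (resForm B Y)) (hY0 : Y ≠ ⊥) :
    ∃ P : Submodule F V, P ≤ Y ∧ SubTyp Q B P 0 (-1) ∧ P.map g ≤ P := by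
  classical
  have hex : ∃ v ∈ Y, Q v ≠ 0 := by
    by_contra hcon
    push Not at hcon
    apply hY0
    rw [Submodule.eq_bot_iff]
    intro x hx
    have hx0 : (⟨x, hx⟩ : Y) = 0 := by
      apply hYnd
      intro y
      show B x (y : V) = 0
      have h1 := hQ.polar x (y : V)
      rw [hcon x hx, hcon _ y.2, hcon _ (Y.add_mem hx y.2)] at h1
      linear_combination -h1
    exact congrArg Subtype.val hx0
  obtain ⟨v, hvY, hv⟩ := hex
  have hgv : g v ∈ Y := hYg (Submodule.mem_map_of_mem hvY)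
  let P : Submodule F V := Submodule.span F {v, g v}
  have hmem : ∀ x : V, x ∈ P ↔ ∃ a b : F, a • v + b • g v = x :=
    fun x => Submodule.mem_span_pair
  have hPY : P ≤ Y := by
    rw [Submodule.span_le]
    intro x hx
    rcases hx with rfl | rfl
    · exact hvY
    · exact hgv
  have hzero : ∀ x ∈ P, Q x = 0 → x = 0 := by
    intro x hx hQx
    obtain ⟨a, b, rfl⟩ := (hmem x).mp hx
    rw [c4_Q h2 hQ hgQ hg] at hQx
    have h3 := (mul_eq_zero.mp hQx).resolve_right hv
    obtain ⟨ha, hb⟩ := c4_aniso hns a b h3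
    rw [ha, hb, zero_smul, zero_smul, add_zero]
  have hPg : P.map g ≤ P := by
    rw [Submodule.map_span, Submodule.span_le]
    rintro _ ⟨x, hx, rfl⟩
    rcases hx with rfl | rfl
    · exact Submodule.subset_span (by simp)
    · rw [c4_gg hg]
      exact P.neg_mem (Submodule.subset_span (by simp))
  have hnd : Nondeg (resForm B P) := by
    intro x hx
    apply Subtype.ext
    apply hzero x.1 x.2
    have h1 : B (x : V) (x : V) = 0 := hx x
    rw [hQ.self] at h1
    exact (mul_eq_zero.mp h1).resolve_left h2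
  have hli : LinearIndependent F ![v, g v] := by
    rw [LinearIndependent.pair_iff]
    intro a b hab
    have h1 : Q (a • v + b • g v) = 0 := by rw [hab, hQ.map_zero]
    rw [c4_Q h2 hQ hgQ hg] at h1
    exact c4_aniso hns a b ((mul_eq_zero.mp h1).resolve_right hv)
  have hfin : finrank F P = 2 := by
    have h1 := finrank_span_eq_card hli
    rw [Matrix.range_cons_cons_empty] at h1
    simpa using h1
  refine ⟨P, hPY, ⟨hnd, by rw [hfin], ?_⟩, hPg⟩
  rcases hf.typ_exists 0 P (fun w : P => Q (w : V)) (resForm B P) (hQ.res P) hnd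
    (by rw [hfin]) with h | h
  · exfalso
    have hcard : Nat.card {w : P // Q (w : V) = 0} = 1 := by
      rw [Nat.card_eq_one_iff_unique]
      refine ⟨⟨fun a b => ?_⟩, ⟨⟨0, hQ.map_zero⟩⟩⟩
      apply Subtype.ext
      apply Subtype.ext
      rw [hzero a.1.1 a.1.2 a.2, hzero b.1.1 b.1.2 b.2]
    have h1 := h.1
    rw [hcard] at h1
    have hq : (2 : ℤ) ≤ (Fintype.card F : ℤ) := by exact_mod_cast Fintype.one_lt_card
    norm_num at h1
    linarith
  · exact h

/-- C4, with the statement of the sibling piece SUM (`subtyp_sup`) as the hypothesis `hsum`. -/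
theorem cpx_fix_four_of
    (hsum : ∀ (X Y : Submodule F V), (∀ x ∈ X, ∀ y ∈ Y, B x y = 0) → ∀ (k₁ k₂ : ℕ) (ε₁ ε₂ : ℤ),
      SubTyp Q B X k₁ ε₁ → SubTyp Q B Y k₂ ε₂ → SubTyp Q B (X ⊔ Y) (k₁ + k₂ + 1) (ε₁ * ε₂))
    (hf : QFacts F) (h2 : (2 : F) ≠ 0) (hns : ¬ IsSquare (-1 : F))
    (hQ : IsQuad Q B) (hnd : Nondeg B) (d : ℕ) (hdim : finrank F V = 2 * d)
    (g : Module.End F V) (hgQ : QI Q g) (hg : g * g = -1) (k : ℕ)
    (hk : 2 * k + 2 < d) (hk4 : Odd k) :
    ∃ W : Submodule F V, SubTyp Q B W k 1 ∧ W.map g ≤ W := by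
  have key : ∀ j : ℕ, j + 1 ≤ d →
      ∃ W : Submodule F V, SubTyp Q B W j ((-1) ^ (j + 1)) ∧ W.map g ≤ W := by
    intro j
    induction j with
    | zero =>
      intro hj
      have htop : (⊤ : Submodule F V) ≠ ⊥ := by
        intro h
        have h1 : finrank F (⊤ : Submodule F V) = 0 := by rw [h]; exact finrank_bot F V
        rw [finrank_top, hdim] at h1
        omega
      have hndtop : Nondeg (resForm B (⊤ : Submodule F V)) := by
        intro x hx
        apply Subtype.ext
        exact hnd x.1 (fun y => hx ⟨y, Submodule.mem_top⟩)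
      obtain ⟨P, -, hP, hPg⟩ := c4_plane hf h2 hns hQ hgQ hg ⊤ le_top hndtop htop
      have e0 : ((-1 : ℤ)) ^ (0 + 1) = -1 := by norm_num
      rw [e0]
      exact ⟨P, hP, hPg⟩
    | succ j ih =>
      intro hj
      obtain ⟨W, hW, hWg⟩ := ih (by omega)
      have hc : IsCompl W (hQ.form.orth W) := isCompl_orth hQ.form hW.1
      have hYnd : Nondeg (resForm B (hQ.form.orth W)) := nondeg_orth hQ.form hnd hc
      have hY0 : hQ.form.orth W ≠ ⊥ := by
        intro h
        rw [h] at hc
        have hWtop : W = ⊤ := eq_top_of_isCompl_bot hc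
        have h1 := hW.2.1
        rw [hWtop, finrank_top, hdim] at h1
        omega
      have hYg : (hQ.form.orth W).map g ≤ hQ.form.orth W := by
        rintro _ ⟨y, hy, rfl⟩
        intro x hx
        have hx' : -(g x) ∈ W := W.neg_mem (hWg (Submodule.mem_map_of_mem hx))
        have h1 : B (g (-(g x))) (g y) = B (-(g x)) y := hQ.isometry hQ g hgQ _ _
        rw [map_neg, c4_gg hg, neg_neg] at h1
        rw [h1]
        exact hy _ hx'
      obtain ⟨P, hPY, hP, hPg⟩ := c4_plane hf h2 hns hQ hgQ hg _ hYg hYnd hY0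
      have hsum := hsum W P (fun x hx y hy => hPY hy x hx) j 0 ((-1) ^ (j + 1))
        (-1) hW hP
      refine ⟨W ⊔ P, ?_, ?_⟩
      · have e1 : j + 0 + 1 = j + 1 := by omega
        have e2 : ((-1 : ℤ)) ^ (j + 1) * (-1) = (-1) ^ (j + 1 + 1) := by ring
        rw [e1, e2] at hsum
        exact hsum
      · rw [Submodule.map_sup]
        exact sup_le_sup hWg hPg
  obtain ⟨W, hW, hWg⟩ := key k (by omega)
  refine ⟨W, ?_, hWg⟩
  have e : ((-1 : ℤ)) ^ (k + 1) = 1 := by
    obtain ⟨m, hm⟩ := hk4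
    rw [hm]
    have e3 : 2 * m + 1 + 1 = 2 * (m + 1) := by ring
    rw [e3, pow_mul]
    norm_num
  rw [e] at hW
  exact hW

end Cfsg.Agent.Lib.Helper98.H74
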