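import Cfsg.Agent.Lib.Helper98.H74Defs
import Cfsg.Agent.Lib.Helper60.H74C4of
import Cfsg.Agent.Lib.Helper43.H74SUMalt

/-!
# Project H74 (S5974, helper98): piece C4 (`cpx_fix_four`), exact skeleton statement

`cpx_fix_four_of` (`Lib/Helper60/H74C4of.lean`) applied to the sibling piece SUM (`subtyp_sup_alt`, helper43).
-/

set_option autoImplicit false

namespace Cfsg.Agent.Lib.Helper98.H74

open Cfsg.Agent.Lib.Helper47 Cfsg.Agent.Lib.Helper98.T73 Module Polynomial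

universe u

variable {F : Type u} [Field F] [Fintype F] {V : Type u} [AddCommGroup V] [Module F V]
  [FiniteDimensional F V] {Q : V → F} {B : V → V → F}

/-- C4 -/
theorem cpx_fix_four (hf : QFacts F) (h2 : (2 : F) ≠ 0) (hns : ¬ IsSquare (-1 : F))
    (hQ : IsQuad Q B) (hnd : Nondeg B) (d : ℕ) (hdim : finrank F V = 2 * d) (p : ℕ)
    [Fact p.Prime] [CharP F p] (g : Module.End F V) (hgQ : QI Q g) (hg : g * g = -1) (k : ℕ)
    (hk : 2 * k + 2 < d) (hk4 : Odd k) :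
    ∃ W : Submodule F V, SubTyp Q B W k 1 ∧ W.map g ≤ W :=
  cpx_fix_four_of (fun X Y h k₁ k₂ ε₁ ε₂ hX hY => subtyp_sup_alt hf hQ X Y h k₁ k₂ ε₁ ε₂ hX hY)
    hf h2 hns hQ hnd d hdim g hgQ hg k hk hk4

end Cfsg.Agent.Lib.Helper98.H74
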