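import Cfsg.Agent.Lib.Helper98.H74Defs
import Cfsg.Agent.Lib.Helper60.H74C4of
import Cfsg.Agent.Lib.Helper43.H74SUMalt

/-!
# Project H74 (S5974, helper98): piece CSQ (`cpx_fix_sq`), helper60 copy

`g² = -1`, `-1 = ι²` a square: for a nonsingular `v` the plane `⟨v, g v⟩` is invariant,
nondegenerate and contains the singular vector `v + ι g v`, so it has type `+`; peeling `k + 1`
such planes gives an invariant nondegenerate subspace of dimension `2k + 2` and type `+`.
-/

set_option autoImplicit false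

namespace Cfsg.Agent.Lib.Helper98.H74

open Cfsg.Agent.Lib.Helper47 Cfsg.Agent.Lib.Helper98.T73 Module Polynomial

universe u

variable {F : Type u} [Field F] [Fintype F] {V : Type u} [AddCommGroup V] [Module F V]
  [FiniteDimensional F V] {Q : V → F} {B : V → V → F}

/-- A nonzero invariant nondegenerate subspace contains an invariant hyperbolic plane. -/
theorem csq60_plane (hf : QFacts F) (h2 : (2 : F) ≠ 0) (hsq : IsSquare (-1 : F))
    (hQ : IsQuad Q B) {g : Module.End F V} (hgQ : QI Q g) (hg : g * g = -1)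
    (Y : Submodule F V) (hYg : Y.map g ≤ Y) (hYnd : Nondeg (resForm B Y)) (hY0 : Y ≠ ⊥) :
    ∃ P : Submodule F V, P ≤ Y ∧ SubTyp Q B P 0 1 ∧ P.map g ≤ P := by
  classical
  obtain ⟨ι, hι⟩ := hsq
  have hex : ∃ v ∈ Y, Q v ≠ 0 := by
    by_contra hcon
    push Not at hcon
    apply hY0
    rw [Submodule.eq_bot_iff]
    intro x hx
    have hx0 : (⟨x, hx⟩ : Y) = 0 := by
      apply hYnd
      intro y
      show B x (y : V) = 0
      have h1 := hQ.polar x (y : V)
      rw [hcon x hx, hcon _ y.2, hcon _ (Y.add_mem hx y.2)] at h1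
      linear_combination -h1
    exact congrArg Subtype.val hx0
  obtain ⟨v, hvY, hv⟩ := hex
  have hgv : g v ∈ Y := hYg (Submodule.mem_map_of_mem hvY)
  let P : Submodule F V := Submodule.span F {v, g v}
  have hmem : ∀ x : V, x ∈ P ↔ ∃ a b : F, a • v + b • g v = x :=
    fun x => Submodule.mem_span_pair
  have hvP : v ∈ P := Submodule.subset_span (by simp)
  have hgvP : g v ∈ P := Submodule.subset_span (by simp)
  have hPY : P ≤ Y := by
    rw [Submodule.span_le]
    intro x hx
    rcases hx with rfl | rfl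
    · exact hvY
    · exact hgv
  have hPg : P.map g ≤ P := by
    rw [Submodule.map_span, Submodule.span_le]
    rintro _ ⟨x, hx, rfl⟩
    rcases hx with rfl | rfl
    · exact hgvP
    · rw [c4_gg hg]
      exact P.neg_mem hvP
  have hBvv : B v v ≠ 0 := by
    rw [hQ.self]
    exact mul_ne_zero h2 hv
  have hBgg : B (g v) (g v) = B v v := hQ.isometry hQ g hgQ v v
  have hperp : B v (g v) = 0 := c4_perp h2 hQ hgQ hg v
  have hperp' : B (g v) v = 0 := by
    rw [sym_comm hQ.form v (g v)]
    exact hperp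
  have hcoord : ∀ a b : F, B (a • v + b • g v) v = 0 → B (a • v + b • g v) (g v) = 0 →
      a = 0 ∧ b = 0 := by
    intro a b h1 h3
    rw [hQ.form.add_left, hQ.form.smul_left, hQ.form.smul_left, hperp', mul_zero, add_zero] at h1
    rw [hQ.form.add_left, hQ.form.smul_left, hQ.form.smul_left, hperp, hBgg, mul_zero,
      zero_add] at h3
    exact ⟨(mul_eq_zero.mp h1).resolve_right hBvv, (mul_eq_zero.mp h3).resolve_right hBvv⟩
  have hnd : Nondeg (resForm B P) := by
    intro x hx
    obtain ⟨a, b, hab⟩ := (hmem x.1).mp x.2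
    have h1 : B (x : V) v = 0 := hx ⟨v, hvP⟩
    have h3 : B (x : V) (g v) = 0 := hx ⟨g v, hgvP⟩
    rw [← hab] at h1 h3
    obtain ⟨ha, hb⟩ := hcoord a b h1 h3
    apply Subtype.ext
    rw [← hab, ha, hb, zero_smul, zero_smul, add_zero]
    rfl
  have hli : LinearIndependent F ![v, g v] := by
    rw [LinearIndependent.pair_iff]
    intro a b hab
    apply hcoord a b
    · rw [hab, hQ.form.zero_left]
    · rw [hab, hQ.form.zero_left]
  have hfin : finrank F P = 2 := by
    have h1 := finrank_span_eq_card hli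
    rw [Matrix.range_cons_cons_empty] at h1
    simpa using h1
  refine ⟨P, hPY, ⟨hnd, by rw [hfin], ?_⟩, hPg⟩
  rcases hf.typ_exists 0 P (fun w : P => Q (w : V)) (resForm B P) (hQ.res P) hnd
    (by rw [hfin]) with h | h
  · exact h
  · exfalso
    have h1 := h.1
    have hcard : Nat.card {w : P // Q (w : V) = 0} = 1 := by
      have h3 : (Nat.card {w : P // Q (w : V) = 0} : ℤ) = 1 := by
        rw [h1]
        ring
      exact_mod_cast h3
    rw [Nat.card_eq_one_iff_unique] at hcard
    obtain ⟨hsub, -⟩ := hcard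
    have huP : (1 : F) • v + ι • g v ∈ P := (hmem _).mpr ⟨1, ι, rfl⟩
    have hQu : Q ((1 : F) • v + ι • g v) = 0 := by
      rw [c4_Q h2 hQ hgQ hg]
      have e : (1 : F) ^ 2 + ι ^ 2 = 0 := by linear_combination -hι
      rw [e, zero_mul]
    have heq : (⟨⟨(1 : F) • v + ι • g v, huP⟩, hQu⟩ : {w : P // Q (w : V) = 0})
        = ⟨0, hQ.map_zero⟩ := Subsingleton.elim _ _
    have h0 : (1 : F) • v + ι • g v = 0 := congrArg (fun w : {w : P // Q (w : V) = 0} => ((w : P) : V)) heq
    have h4 := (LinearIndependent.pair_iff.mp hli) 1 ι h0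
    exact one_ne_zero h4.1

/-- CSQ -/
theorem cpx_fix_sq (hf : QFacts F) (h2 : (2 : F) ≠ 0) (hsq : IsSquare (-1 : F))
    (hQ : IsQuad Q B) (hnd : Nondeg B) (d : ℕ) (hdim : finrank F V = 2 * d) (p : ℕ)
    [Fact p.Prime] [CharP F p] (g : Module.End F V) (hgQ : QI Q g) (hg : g * g = -1) (k : ℕ)
    (hk : 2 * k + 2 < d) :
    ∃ W : Submodule F V, SubTyp Q B W k 1 ∧ W.map g ≤ W := by
  have key : ∀ j : ℕ, j + 1 ≤ d →
      ∃ W : Submodule F V, SubTyp Q B W j 1 ∧ W.map g ≤ W := by
    intro j
    induction j with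
    | zero =>
      intro hj
      have htop : (⊤ : Submodule F V) ≠ ⊥ := by
        intro h
        have h1 : finrank F (⊤ : Submodule F V) = 0 := by rw [h]; exact finrank_bot F V
        rw [finrank_top, hdim] at h1
        omega
      have hndtop : Nondeg (resForm B (⊤ : Submodule F V)) := by
        intro x hx
        apply Subtype.ext
        exact hnd x.1 (fun y => hx ⟨y, Submodule.mem_top⟩)
      obtain ⟨P, -, hP, hPg⟩ := csq60_plane hf h2 hsq hQ hgQ hg ⊤ le_top hndtop htop
      exact ⟨P, hP, hPg⟩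
    | succ j ih =>
      intro hj
      obtain ⟨W, hW, hWg⟩ := ih (by omega)
      have hc : IsCompl W (hQ.form.orth W) := isCompl_orth hQ.form hW.1
      have hYnd : Nondeg (resForm B (hQ.form.orth W)) := nondeg_orth hQ.form hnd hc
      have hY0 : hQ.form.orth W ≠ ⊥ := by
        intro h
        rw [h] at hc
        have hWtop : W = ⊤ := eq_top_of_isCompl_bot hc
        have h1 := hW.2.1
        rw [hWtop, finrank_top, hdim] at h1
        omega
      have hYg : (hQ.form.orth W).map g ≤ hQ.form.orth W := by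
        rintro _ ⟨y, hy, rfl⟩
        intro x hx
        have hx' : -(g x) ∈ W := W.neg_mem (hWg (Submodule.mem_map_of_mem hx))
        have h1 : B (g (-(g x))) (g y) = B (-(g x)) y := hQ.isometry hQ g hgQ _ _
        rw [map_neg, c4_gg hg, neg_neg] at h1
        rw [h1]
        exact hy _ hx'
      obtain ⟨P, hPY, hP, hPg⟩ := csq60_plane hf h2 hsq hQ hgQ hg _ hYg hYnd hY0
      have hsum := subtyp_sup_alt hf hQ W P (fun x hx y hy => hPY hy x hx) j 0 1 1 hW hP
      refine ⟨W ⊔ P, ?_, ?_⟩
      · have e1 : j + 0 + 1 = j + 1 := by omega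
        have e2 : ((1 : ℤ)) * 1 = 1 := by ring
        rw [e1, e2] at hsum
        exact hsum
      · rw [Submodule.map_sup]
        exact sup_le_sup hWg hPg
  exact key k (by omega)

end Cfsg.Agent.Lib.Helper98.H74
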