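import Mathlib
import Cfsg.Agent.Lib.Helper22.HPDefs
import Cfsg.Agent.Lib.Helper83.IrrBasic
import Cfsg.Agent.Lib.Helper68.BFPDEC
import Cfsg.Agent.Lib.Helper63.BFS1E

/-!
# S4504, piece HP-SS-EXACT (for helper84): the values of an irreducible character on `⟨z⟩` are
`γ + α η_t + β η_{s t}` with natural numbers `γ, α, β`

Statement from `tools/helper84/HPSSSkel.lean.txt`.
-/

set_option autoImplicit false
set_option linter.unusedVariables false

namespace Cfsg.Agent.Lib.Helper60.HPT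

open Cfsg Cfsg.Agent.Lib.Helper22.BFD Cfsg.Agent.Lib.Helper22.HPD
open scoped ComplexConjugate

universe u

theorem exact_mem_Sq {p : ℕ} [Fact p.Prime] (a : ZMod p) : a ∈ Sq p ↔ a ≠ 0 ∧ IsSquare a := by
  unfold Sq
  rw [Finset.mem_filter]
  simp

theorem exact_nonsq_div {p : ℕ} [Fact p.Prime] {u s : ZMod p} (hu0 : u ≠ 0)
    (hu : ¬ IsSquare u) (hs0 : s ≠ 0) (hs : ¬ IsSquare s) : IsSquare (s⁻¹ * u) := by
  classical
  have h1 : quadraticChar (ZMod p) u = -1 := quadraticChar_neg_one_iff_not_isSquare.mpr hu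
  have h2 : quadraticChar (ZMod p) s = -1 := quadraticChar_neg_one_iff_not_isSquare.mpr hs
  have hne : s⁻¹ * u ≠ 0 := mul_ne_zero (inv_ne_zero hs0) hu0
  have h3 : quadraticChar (ZMod p) (s⁻¹ * u) * quadraticChar (ZMod p) s = -1 := by
    rw [← map_mul]
    have e : s⁻¹ * u * s = u := by
      field_simp
    rw [e, h1]
  rw [h2] at h3
  have h4 : quadraticChar (ZMod p) (s⁻¹ * u) = 1 := by
    linarith
  exact (quadraticChar_one_iff_isSquare hne).mp h4

/-- SUB-PIECE SS-EXACT (G2 of note 1792). -/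
theorem hp_exact {G : Type u} [Group G] [Fintype G] (p : ℕ) [Fact p.Prime] (hp2 : p ≠ 2)
    (χ : G → ℂ) (z : G) (ζ : ℂ) (hHP : HP p ζ z χ) (s : ZMod p) (hs0 : s ≠ 0) (hs : s ∉ Sq p)
    (φ : IrrCharacter G) :
    ∃ γ α β : ℕ, ∀ t : ZMod p,
      φ.1 (z ^ t.val) = (γ : ℂ) + (α : ℂ) * eta p ζ t + (β : ℂ) * eta p ζ (s * t) := by
  classical
  have hchar : IsCharacter G φ.1 := by
    obtain ⟨n, ρ, -, h⟩ := φ.2
    exact ⟨n, ρ, h⟩
  have hzp : z ^ p = 1 := by
    rw [← hHP.hz]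
    exact pow_orderOf_eq_one z
  obtain ⟨a, ha⟩ := Cfsg.Agent.Lib.Helper68.BFT.pdec p ζ hHP.hζ φ.1 hchar z hzp
  have hst := Cfsg.Agent.Lib.Helper63.BFT.a_stable p ζ hHP.hζ z hHP.hz φ.1
    (fun x h => Cfsg.Agent.Lib.Helper83.irr_classFunction φ.2 x h) a ha
  have hEf : ∀ k : ZMod p, k ∈ Sq p → k ∈ Ef p z := by
    intro k hk
    unfold Ef
    rw [Finset.mem_filter]
    exact ⟨Finset.mem_univ _, (hHP.hE k).mpr hk⟩
  have hsns : ¬ IsSquare s := fun h => hs ((exact_mem_Sq s).mpr ⟨hs0, h⟩)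
  -- the coefficients on the squares and on the non-squares
  have ha1 : ∀ k ∈ Sq p, a k = a 1 := by
    intro k hk
    have := hst k (hEf k hk) 1
    rwa [mul_one] at this
  have has : ∀ k ∈ Sq p, a (s * k) = a s := by
    intro k hk
    have := hst k (hEf k hk) s
    rwa [mul_comm] at this
  refine ⟨a 0, a 1, a s, fun t => ?_⟩
  rw [ha t]
  -- split the sum
  have hsplit : ∀ f : ZMod p → ℂ, ∑ u : ZMod p, f u =
      f 0 + ∑ u ∈ Sq p, f u + ∑ b ∈ Sq p, f (s * b) := by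
    intro f
    rw [← Finset.add_sum_erase Finset.univ f (Finset.mem_univ (0 : ZMod p)), add_assoc]
    congr 1
    rw [← Finset.sum_filter_add_sum_filter_not (Finset.univ.erase (0 : ZMod p))
      (fun u => IsSquare u) f]
    congr 1
    · apply Finset.sum_congr _ (fun _ _ => rfl)
      ext u
      rw [Finset.mem_filter, Finset.mem_erase, exact_mem_Sq]
      simp
    · rw [← Finset.sum_image (s := Sq p) (g := fun b => s * b) (f := f)
        (fun x _ y _ h => mul_left_cancel₀ hs0 h)]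
      apply Finset.sum_congr _ (fun _ _ => rfl)
      ext u
      rw [Finset.mem_filter, Finset.mem_erase, Finset.mem_image]
      constructor
      · rintro ⟨⟨hu0, -⟩, hu⟩
        refine ⟨s⁻¹ * u, (exact_mem_Sq _).mpr
          ⟨mul_ne_zero (inv_ne_zero hs0) hu0, exact_nonsq_div hu0 hu hs0 hsns⟩, ?_⟩
        rw [← mul_assoc, mul_inv_cancel₀ hs0, one_mul]
      · rintro ⟨b, hb, rfl⟩
        obtain ⟨hb0, c, hc⟩ := (exact_mem_Sq b).mp hb
        refine ⟨⟨mul_ne_zero hs0 hb0, Finset.mem_univ _⟩, ?_⟩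
        rintro ⟨d, hd⟩
        apply hsns
        have hc0 : c ≠ 0 := by
          rintro rfl
          exact hb0 (by rw [hc, mul_zero])
        refine ⟨d * c⁻¹, ?_⟩
        have e1 : s = s * b * b⁻¹ := by
          rw [mul_assoc, mul_inv_cancel₀ hb0, mul_one]
        rw [e1, hd, hc]
        field_simp
  rw [hsplit]
  have e0 : (a 0 : ℂ) * ζ ^ ((0 : ZMod p) * t).val = (a 0 : ℂ) := by
    rw [zero_mul, ZMod.val_zero, pow_zero, mul_one]
  have e1 : ∑ u ∈ Sq p, (a u : ℂ) * ζ ^ (u * t).val = (a 1 : ℂ) * eta p ζ t := by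
    unfold eta
    rw [Finset.mul_sum]
    exact Finset.sum_congr rfl (fun u hu => by rw [ha1 u hu])
  have e2 : ∑ b ∈ Sq p, (a (s * b) : ℂ) * ζ ^ (s * b * t).val = (a s : ℂ) * eta p ζ (s * t) := by
    unfold eta
    rw [Finset.mul_sum]
    refine Finset.sum_congr rfl (fun b hb => ?_)
    rw [has b hb]
    congr 3
    ring
  rw [e0, e1, e2]

end Cfsg.Agent.Lib.Helper60.HPT
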