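import Mathlib
import Cfsg.Agent.Lib.Helper72.JPDefs
import Cfsg.Agent.Lib.Helper94.JcTH

/-!
# Project JP (helper72; S2948, S2949), piece FRAT

Frattini argument: `X = ⟨J^X⟩ · N_X(J)` for `J = JT T`, `T` a Sylow 2-subgroup of `X`.
-/

set_option autoImplicit false

namespace Cfsg.Agent.Lib.Helper60.JP

open Cfsg.Agent.Lib.Helper72.JP Cfsg.Agent.Lib.Helper72.JM Cfsg.Agent.Lib.Helper72.JL
  Cfsg.Agent.Lib.Helper72.SC Cfsg.Agent.Lib.Helper78.Jc
open scoped commutatorElement

universe u

/-- for a normal subgroup `N`, the index of `T ⊓ N` in `N` divides the index of `T` -/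
theorem frat_relIndex_dvd {X : Type u} [Group X] [Finite X] (T N : Subgroup X) [N.Normal] :
    T.relIndex N ∣ T.index := by
  have h1 := Subgroup.relIndex_mul_relIndex (T ⊓ N) T (T ⊔ N) inf_le_left le_sup_left
  have h2 := Subgroup.relIndex_mul_relIndex (T ⊓ N) N (T ⊔ N) inf_le_right le_sup_right
  rw [Subgroup.inf_relIndex_left] at h1
  rw [Subgroup.inf_relIndex_right, Subgroup.relIndex_sup_right] at h2
  have h3 : N.relIndex T ≠ 0 := by
    unfold Subgroup.relIndex
    exact Subgroup.index_ne_zero_of_finite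
  have h4 : T.relIndex (T ⊔ N) = T.relIndex N := by
    have h5 : N.relIndex T * T.relIndex (T ⊔ N) = N.relIndex T * T.relIndex N := by
      rw [h1, ← h2, mul_comm]
    exact Nat.eq_of_mul_eq_mul_left (Nat.pos_of_ne_zero h3) h5
  rw [← h4]
  exact Subgroup.relIndex_dvd_index_of_le le_sup_left

/-- JP-FRAT -/
theorem frat : FratStmt.{u} := by
  intro X _ _ T hT hodd
  have : Fact (Nat.Prime 2) := ⟨Nat.prime_two⟩
  set J : Subgroup X := JT T with hJ
  have hJT : J ≤ T := sSup_le (fun A hA => hA.1)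
  set X' : Subgroup X := Subgroup.normalClosure (J : Set X) with hX'
  have hJX' : J ≤ X' := Subgroup.le_normalClosure
  have hX'n : X'.Normal := Subgroup.normalClosure_normal
  -- `T ⊓ X'` is a Sylow 2-subgroup of `X'`
  have hT'p : IsPGroup 2 (T.subgroupOf X') :=
    hT.comap_of_injective X'.subtype X'.subtype_injective
  have hT'i : ¬ 2 ∣ (T.subgroupOf X').index := by
    intro h
    have h1 : (2 : ℕ) ∣ T.index := h.trans (frat_relIndex_dvd T X')
    exact (Nat.not_even_iff_odd.mpr hodd) (even_iff_two_dvd.mpr h1)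
  have hfr := Sylow.normalizer_sup_eq_top (hT'p.toSylow hT'i)
  have hmap : Subgroup.map X'.subtype ((hT'p.toSylow hT'i : Sylow 2 ↥X') : Subgroup ↥X') =
      T ⊓ X' := Subgroup.subgroupOf_map_subtype T X'
  rw [hmap] at hfr
  -- the normalizer of `T ⊓ X'` normalizes `J`
  have hconj : ∀ x ∈ Subgroup.normalizer ((T ⊓ X' : Subgroup X) : Set X), ∀ y ∈ J,
      x * y * x⁻¹ ∈ J := by
    intro x hx
    have hle : J ≤ J.comap (MulAut.conj x).toMonoidHom := by
      apply sSup_le
      intro A hA
      rw [← Subgroup.map_le_iff_le_comap]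
      apply le_sSup
      apply Cfsg.Agent.Lib.Helper94.Jc.maxEA_conj T A hA x
      intro a ha
      have haJ : a ∈ J := (le_sSup hA : A ≤ J) ha
      have haT' : a ∈ T ⊓ X' := ⟨hJT haJ, hJX' haJ⟩
      exact ((Subgroup.mem_normalizer_iff.mp hx a).mp haT').1
    intro y hy
    exact hle hy
  have hNN : Subgroup.normalizer ((T ⊓ X' : Subgroup X) : Set X) ≤
      Subgroup.normalizer ((J : Subgroup X) : Set X) := by
    intro x hx
    rw [Subgroup.mem_normalizer_iff]
    intro y
    constructor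
    · exact hconj x hx y
    · intro hy
      have h1 := hconj x⁻¹ (Subgroup.inv_mem _ hx) _ hy
      have e : x⁻¹ * (x * y * x⁻¹) * x⁻¹⁻¹ = y := by group
      rwa [e] at h1
  apply top_le_iff.mp
  rw [← hfr, sup_comm]
  exact sup_le_sup_left hNN X'
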