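import Mathlib
import Cfsg.Agent.Lib.Helper78.JQDefs

/-!
# Project JQ (helper78, S2945), piece CNTE (helper60)

The counting argument with `E = C_A(W) ⟨W^A⟩`: a largest elementary abelian 2-subgroup `A`
normalizes `W`.
-/

set_option autoImplicit false

namespace Cfsg.Agent.Lib.Helper60.JQ

open Cfsg.Agent.Lib.Helper78.JQ Cfsg.Agent.Lib.Helper78.Jc

universe u

theorem cnte_arith (m : ℕ) (h : 4 ^ m ≤ 4 * m) : m = 1 := by
  rcases Nat.lt_or_ge m 2 with h2 | h2
  · interval_cases m
    · simp at h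
    · rfl
  · exfalso
    obtain ⟨k, rfl⟩ : ∃ k, m = k + 1 := ⟨m - 1, by omega⟩
    have h3 : 2 * k < 2 ^ (2 * k) := Nat.lt_two_pow_self
    have h4 : (2 : ℕ) ^ (2 * k) = 4 ^ k := by
      rw [pow_mul]
      norm_num
    rw [h4] at h3
    rw [pow_succ] at h
    generalize (4 : ℕ) ^ k = t at h h3
    omega

theorem cnte_card_mul {X : Type u} [Group X] [Finite X] (H K : Subgroup X) (hHK : H ≤ K) :
    Nat.card ↥H * H.relIndex K = Nat.card ↥K := by
  have h := Subgroup.relIndex_mul_relIndex (⊥ : Subgroup X) H K bot_le hHK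
  rwa [Subgroup.relIndex_bot_left, Subgroup.relIndex_bot_left] at h

theorem cnte : CnteStmt.{u} := by
  intro X _ _ U A W hUn hUab hU2 hAab hA2 hmax hWU hcard hprod
  classical
  -- `⟨W^A⟩ ≤ U`
  have hU₁U : cjSup A W ≤ U := by
    unfold cjSup
    apply iSup_le
    rintro ⟨a, ha⟩ v hv
    obtain ⟨w, hw, rfl⟩ := hv
    exact hUn.conj_mem w (hWU hw) a
  -- `C_A(W)` centralizes `⟨W^A⟩`
  have hcomm : ∀ c ∈ A ⊓ Subgroup.centralizer (W : Set X), ∀ v ∈ cjSup A W, c * v = v * c := by
    intro c hc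
    have hle : cjSup A W ≤ Subgroup.centralizer {c} := by
      unfold cjSup
      apply iSup_le
      rintro ⟨a, ha⟩ v hv
      obtain ⟨w, hw, rfl⟩ := hv
      rw [Subgroup.mem_centralizer_iff]
      intro h hh
      rw [Set.mem_singleton_iff] at hh
      subst hh
      have h1 : h * a = a * h := hAab h hc.1 a ha
      have h2 : w * h = h * w := Subgroup.mem_centralizer_iff.1 hc.2 w hw
      show h * (a * w * a⁻¹) = (a * w * a⁻¹) * h
      calc h * (a * w * a⁻¹) = (h * a) * w * a⁻¹ := by group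
        _ = a * (h * w) * a⁻¹ := by rw [h1]; group
        _ = a * (w * h) * a⁻¹ := by rw [h2]
        _ = a * w * (a⁻¹ * (a * h) * a⁻¹) := by group
        _ = a * w * (a⁻¹ * (h * a) * a⁻¹) := by rw [h1]
        _ = a * w * a⁻¹ * h := by group
    intro v hv
    exact Subgroup.mem_centralizer_iff.1 (hle hv) c rfl
  -- `E = C_A(W) ⟨W^A⟩` is abelian of exponent 2
  have hEc : ∀ x ∈ A ⊓ Subgroup.centralizer (W : Set X) ⊔ cjSup A W, ∀ s : X,
      (s ∈ A ⊓ Subgroup.centralizer (W : Set X) ∨ s ∈ cjSup A W) → s * x = x * s := by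
    intro x hx
    have hle : A ⊓ Subgroup.centralizer (W : Set X) ⊔ cjSup A W ≤
        Subgroup.centralizer {s : X | s ∈ A ⊓ Subgroup.centralizer (W : Set X) ∨ s ∈ cjSup A W} := by
      apply sup_le
      · intro c hc
        rw [Subgroup.mem_centralizer_iff]
        rintro s (hs | hs)
        · exact hAab s hs.1 c hc.1
        · exact (hcomm c hc s hs).symm
      · intro v hv
        rw [Subgroup.mem_centralizer_iff]
        rintro s (hs | hs)
        · exact hcomm s hs v hv
        · exact hUab s (hU₁U hs) v (hU₁U hv)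
    intro s hs
    exact Subgroup.mem_centralizer_iff.1 (hle hx) s hs
  have hEab : ∀ x ∈ A ⊓ Subgroup.centralizer (W : Set X) ⊔ cjSup A W,
      ∀ y ∈ A ⊓ Subgroup.centralizer (W : Set X) ⊔ cjSup A W, x * y = y * x := by
    intro x hx y hy
    have hle : A ⊓ Subgroup.centralizer (W : Set X) ⊔ cjSup A W ≤ Subgroup.centralizer {y} := by
      apply sup_le
      · intro c hc
        rw [Subgroup.mem_centralizer_iff]
        intro h hh
        rw [Set.mem_singleton_iff] at hh
        subst hh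
        exact (hEc h hy c (Or.inl hc)).symm
      · intro v hv
        rw [Subgroup.mem_centralizer_iff]
        intro h hh
        rw [Set.mem_singleton_iff] at hh
        subst hh
        exact (hEc h hy v (Or.inr hv)).symm
    exact (Subgroup.mem_centralizer_iff.1 (hle hx) y rfl).symm
  have hEexp : ∀ x ∈ A ⊓ Subgroup.centralizer (W : Set X) ⊔ cjSup A W, x * x = 1 := by
    intro x hx
    let E2 : Subgroup X :=
      { carrier := {x | x ∈ A ⊓ Subgroup.centralizer (W : Set X) ⊔ cjSup A W ∧ x * x = 1}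
        mul_mem' := by
          rintro x y ⟨hx, hx2⟩ ⟨hy, hy2⟩
          refine ⟨mul_mem hx hy, ?_⟩
          have h3 := hEab x hx y hy
          calc x * y * (x * y) = x * (y * x) * y := by group
            _ = x * (x * y) * y := by rw [← h3]
            _ = (x * x) * (y * y) := by group
            _ = 1 := by rw [hx2, hy2, mul_one]
        one_mem' := ⟨one_mem _, mul_one 1⟩
        inv_mem' := by
          rintro x ⟨hx, hx2⟩
          refine ⟨inv_mem hx, ?_⟩
          rw [← mul_inv_rev, hx2, inv_one] }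
    have hle : A ⊓ Subgroup.centralizer (W : Set X) ⊔ cjSup A W ≤ E2 :=
      sup_le (fun c hc => ⟨Subgroup.mem_sup_left hc, hA2 c hc.1⟩)
        (fun v hv => ⟨Subgroup.mem_sup_right hv, hU2 v (hU₁U hv)⟩)
    exact (hle hx).2
  have c7 := hmax _ hEab hEexp
  -- counting
  have c1 := cnte_card_mul (A ⊓ Subgroup.centralizer (W : Set X) ⊓ cjSup A W)
    (A ⊓ Subgroup.centralizer (W : Set X)) inf_le_left
  have c2 := cnte_card_mul (cjSup A W) (A ⊓ Subgroup.centralizer (W : Set X) ⊔ cjSup A W)
    le_sup_right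
  have c3 : (A ⊓ Subgroup.centralizer (W : Set X) ⊓ cjSup A W).relIndex
      (A ⊓ Subgroup.centralizer (W : Set X)) =
      (cjSup A W).relIndex (A ⊓ Subgroup.centralizer (W : Set X)) := by
    rw [inf_comm]
    exact Subgroup.inf_relIndex_right _ _
  have hEpos : 0 < Nat.card ↥(A ⊓ Subgroup.centralizer (W : Set X) ⊔ cjSup A W) := Nat.card_pos
  have c4 : (cjSup A W).relIndex (A ⊓ Subgroup.centralizer (W : Set X)) ≤
      (cjSup A W).relIndex (A ⊓ Subgroup.centralizer (W : Set X) ⊔ cjSup A W) := by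
    apply Subgroup.relIndex_le_of_le_right le_sup_left
    intro h0
    rw [h0, mul_zero] at c2
    omega
  have hA₁A₀ : A ⊓ Subgroup.centralizer (W : Set X) ≤ A ⊓ Subgroup.normalizer (W : Set X) :=
    inf_le_inf_left A (Subgroup.centralizer_le_normalizer _)
  have c5 := cnte_card_mul (A ⊓ Subgroup.centralizer (W : Set X))
    (A ⊓ Subgroup.normalizer (W : Set X)) hA₁A₀
  have c6 := cnte_card_mul (A ⊓ Subgroup.normalizer (W : Set X)) A inf_le_left
  have hA₁pos : 0 < Nat.card ↥(A ⊓ Subgroup.centralizer (W : Set X)) := Nat.card_pos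
  -- abbreviations
  generalize Nat.card ↥(A ⊓ Subgroup.centralizer (W : Set X)) = a1 at *
  generalize Nat.card ↥(A ⊓ Subgroup.centralizer (W : Set X) ⊓ cjSup A W) = b at *
  generalize Nat.card ↥(A ⊓ Subgroup.centralizer (W : Set X) ⊔ cjSup A W) = e at *
  generalize (A ⊓ Subgroup.centralizer (W : Set X) ⊓ cjSup A W).relIndex
      (A ⊓ Subgroup.centralizer (W : Set X)) = k at *
  generalize (cjSup A W).relIndex (A ⊓ Subgroup.centralizer (W : Set X) ⊔ cjSup A W) = l at *
  generalize (A ⊓ Subgroup.centralizer (W : Set X)).relIndex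
      (A ⊓ Subgroup.normalizer (W : Set X)) = r at *
  have hm : (A ⊓ Subgroup.normalizer (W : Set X)).relIndex A = 1 := by
    apply cnte_arith
    generalize (A ⊓ Subgroup.normalizer (W : Set X)).relIndex A = m at *
    rw [hcard] at c2
    -- `a1 * 4 ^ m ≤ a1 * (4 * m)`
    have hkl : k ≤ l := by rw [c3]; exact c4
    have h1 : a1 * 4 ^ m ≤ a1 * (4 * m) := by
      calc a1 * 4 ^ m = b * k * 4 ^ m := by rw [c1]
        _ ≤ b * l * 4 ^ m := Nat.mul_le_mul_right _ (Nat.mul_le_mul_left _ hkl)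
        _ = b * (4 ^ m * l) := by ring
        _ = b * e := by rw [c2]
        _ ≤ b * Nat.card ↥A := Nat.mul_le_mul_left _ c7
        _ = b * (a1 * r * m) := by rw [← c6, ← c5]
        _ = a1 * ((b * r) * m) := by ring
        _ ≤ a1 * (4 * m) := Nat.mul_le_mul_left _ (Nat.mul_le_mul_right _ hprod)
    exact Nat.le_of_mul_le_mul_left h1 hA₁pos
  exact le_trans (Subgroup.relIndex_eq_one.1 hm) inf_le_right

end Cfsg.Agent.Lib.Helper60.JQ
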