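import Mathlib
import Cfsg.Agent.Lib.Helper54.SL2Cent
import Cfsg.Agent.Lib.Helper95.QABORD
import Cfsg.Agent.Lib.Helper88.QABCENT

/-!
# Project QB (helper48, S2359), piece SL2R (helper60)

`SL₂(F)`, `F` finite of characteristic 3: the centralizer of an element of prime order
`r ∣ q + 1`, `r ≠ 2, 3`, is abelian of order `q + 1`.
-/

set_option autoImplicit false

namespace Cfsg.Agent.Lib.Helper48.QB

-- QB-SL2R
theorem sl2_cent_prime {F : Type*} [Field F] [Fintype F] [CharP F 3] (r : ℕ) (hr : r.Prime)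
    (hr2 : r ≠ 2) (hr3 : r ≠ 3) (hdvd : r ∣ Fintype.card F + 1)
    (g : Matrix.SpecialLinearGroup (Fin 2) F) (hg : orderOf g = r) :
    Nat.card (Subgroup.centralizer {g}) = Fintype.card F + 1 ∧
      ∀ a ∈ Subgroup.centralizer {g}, ∀ b ∈ Subgroup.centralizer {g}, a * b = b * a := by
  classical
  have : Fact (Nat.Prime 3) := ⟨Nat.prime_three⟩
  have h2 : (2 : F) ≠ 0 := by
    intro h
    have h1 : ((2 : ℕ) : F) = 0 := by exact_mod_cast h
    have h3 := (CharP.cast_eq_zero_iff F 3 2).mp h1
    omega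
  have hg1 : g ≠ 1 := by
    intro h
    rw [h, orderOf_one] at hg
    exact hr.one_lt.ne hg
  have hfin : IsOfFinOrder g := by
    rw [← orderOf_pos_iff, hg]
    exact hr.pos
  have hcop : Nat.Coprime (orderOf g) (2 * 3) := by
    rw [hg]
    refine (Nat.Prime.coprime_iff_not_dvd hr).mpr ?_
    intro h
    rcases (Nat.Prime.dvd_mul hr).mp h with h | h
    · exact hr2 ((Nat.prime_dvd_prime_iff_eq hr Nat.prime_two).mp h)
    · exact hr3 ((Nat.prime_dvd_prime_iff_eq hr Nat.prime_three).mp h)
  have ht : (g : Matrix (Fin 2) (Fin 2) F).trace ^ 2 ≠ 4 :=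
    Cfsg.Agent.Lib.Helper48.QA.trace_sq_ne_four (p := 3) (by norm_num) g hg1 hfin hcop
  have hnsc : ¬ ∃ c : F, (g : Matrix (Fin 2) (Fin 2) F) = c • (1 : Matrix (Fin 2) (Fin 2) F) := by
    rintro ⟨c, hc⟩
    apply ht
    have hdet := g.det_coe
    rw [hc] at hdet ⊢
    simp only [Matrix.det_fin_two, Matrix.trace_fin_two, Matrix.smul_apply, Matrix.one_apply_eq,
      smul_eq_mul, mul_one, ne_eq, zero_ne_one, not_false_eq_true, Matrix.one_apply_ne, mul_zero,
      sub_zero, one_ne_zero] at hdet ⊢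
    linear_combination 4 * hdet
  refine ⟨?_, ?_⟩
  · have hgm : g ∈ Subgroup.centralizer ({g} : Set (Matrix.SpecialLinearGroup (Fin 2) F)) := by
      rw [Subgroup.mem_centralizer_iff]
      intro h hh
      rw [Set.mem_singleton_iff] at hh
      rw [hh]
    have hrd : r ∣ Nat.card (Subgroup.centralizer
        ({g} : Set (Matrix.SpecialLinearGroup (Fin 2) F))) := by
      have h1 := orderOf_dvd_natCard (⟨g, hgm⟩ : Subgroup.centralizer
        ({g} : Set (Matrix.SpecialLinearGroup (Fin 2) F)))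
      rw [Subgroup.orderOf_mk, hg] at h1
      exact h1
    rcases Cfsg.Agent.Lib.Helper54.card_centralizer_singleton h2 g ht with h | h
    · exfalso
      rw [h] at hrd
      have hq : 0 < Fintype.card F := Fintype.card_pos
      have h3 : r ∣ (Fintype.card F + 1) - (Fintype.card F - 1) := Nat.dvd_sub hdvd hrd
      have h4 : (Fintype.card F + 1) - (Fintype.card F - 1) = 2 := by omega
      rw [h4] at h3
      exact hr2 ((Nat.prime_dvd_prime_iff_eq hr Nat.prime_two).mp h3)
    · exact h
  · intro a ha b hb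
    rw [Subgroup.mem_centralizer_iff] at ha hb
    have ha' : a * g = g * a := (ha g (Set.mem_singleton g)).symm
    have hb' : b * g = g * b := (hb g (Set.mem_singleton g)).symm
    obtain ⟨α, β, hab⟩ := Cfsg.Agent.Lib.Helper48.QA.cent_form g a hnsc ha'
    obtain ⟨α', β', hab'⟩ := Cfsg.Agent.Lib.Helper48.QA.cent_form g b hnsc hb'
    apply Subtype.ext
    rw [Matrix.SpecialLinearGroup.coe_mul, Matrix.SpecialLinearGroup.coe_mul, hab, hab']
    simp only [add_mul, mul_add, Matrix.smul_mul, Matrix.mul_smul, Matrix.one_mul, Matrix.mul_one,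
      smul_smul]
    module

end Cfsg.Agent.Lib.Helper48.QB
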