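import Mathlib
import Cfsg.Agent.Lib.Helper72.S3Defs

set_option autoImplicit false
set_option linter.unusedSectionVars false
set_option linter.style.haveILetI false

/-!
# S4305, piece MAIN (helper60 for helper72)

`main : CoreStmt → LiftStmt → MainStmt`: the theorem on fixed-point-free coprime actions of `S₃` on
solvable groups, from the module theorem `CoreStmt` and the lifting lemma `LiftStmt`, by induction
on the order of the group (minimal normal invariant subgroup, its automorphism image, the quotient).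
-/

universe u

namespace Cfsg.Agent.Lib.Helper60.S3F

open Cfsg.Agent.Lib.Helper72.S3F

open scoped commutatorElement

/-- the acting group `S₃` -/
abbrev A3 : Type := Equiv.Perm (Fin 3)

/-- a 3-cycle -/
def c3 : A3 := ⟨![1, 2, 0], ![2, 0, 1], by decide, by decide⟩

/-- a transposition -/
def s2 : A3 := ⟨![1, 0, 2], ![1, 0, 2], by decide, by decide⟩

theorem c3_pow : c3 ^ 3 = 1 := by decide

theorem s2_pow : s2 ^ 2 = 1 := by decide

theorem s2_c3 : s2 * c3 * s2⁻¹ = c3⁻¹ := by decide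

theorem cases6 : ∀ a : A3, a = 1 ∨ a = c3 ∨ a = c3 ^ 2 ∨ a = s2 ∨ a = c3 * s2 ∨ a = c3 ^ 2 * s2 := by
  decide

theorem fixed_all {G : Type u} [Group G] [MulDistribMulAction A3 G] (g : G) (h3 : c3 • g = g)
    (h2 : s2 • g = g) (a : A3) : a • g = g := by
  rcases cases6 a with rfl | rfl | rfl | rfl | rfl | rfl
  · exact one_smul _ _
  · exact h3
  · rw [pow_two, mul_smul, h3, h3]
  · exact h2
  · rw [mul_smul, h2, h3]
  · rw [pow_two, mul_smul, mul_smul, h2, h3, h3]

theorem inv_all {G : Type u} [Group G] [MulDistribMulAction A3 G] (W : Subgroup G)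
    (h3 : ∀ x ∈ W, c3 • x ∈ W) (h2 : ∀ x ∈ W, s2 • x ∈ W) (a : A3) : ∀ x ∈ W, a • x ∈ W := by
  intro x hx
  rcases cases6 a with rfl | rfl | rfl | rfl | rfl | rfl
  · rw [one_smul]; exact hx
  · exact h3 x hx
  · rw [pow_two, mul_smul]; exact h3 _ (h3 x hx)
  · exact h2 x hx
  · rw [mul_smul]; exact h3 _ (h2 x hx)
  · rw [pow_two, mul_smul, mul_smul]; exact h3 _ (h3 _ (h2 x hx))

/-- Lifting of fixed points through an invariant subgroup `K`. -/
theorem lift_fixed (hlift : LiftStmt.{u}) {G : Type u} [Group G] [Finite G]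
    [MulDistribMulAction A3 G] (hcop : (Nat.card G).Coprime 6)
    (hfpf : ∀ g : G, (∀ a : A3, a • g = g) → g = 1) (K : Subgroup G)
    (hK : ∀ a : A3, ∀ k ∈ K, a • k ∈ K) (g : G) (h3 : g⁻¹ * c3 • g ∈ K)
    (h2 : g⁻¹ * s2 • g ∈ K) : g ∈ K := by
  have hφ3 : (MulDistribMulAction.toMulAut A3 G c3) ^ 3 = 1 := by
    rw [← map_pow, c3_pow, map_one]
  have hτ2 : (MulDistribMulAction.toMulAut A3 G s2) ^ 2 = 1 := by
    rw [← map_pow, s2_pow, map_one]
  have hτφ : (MulDistribMulAction.toMulAut A3 G s2) * (MulDistribMulAction.toMulAut A3 G c3)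
      * (MulDistribMulAction.toMulAut A3 G s2)⁻¹ = (MulDistribMulAction.toMulAut A3 G c3)⁻¹ := by
    rw [← map_inv, ← map_inv, ← map_mul, ← map_mul, s2_c3]
  have hKc : (Nat.card K).Coprime 6 :=
    Nat.Coprime.coprime_dvd_left (Subgroup.card_subgroup_dvd_card K) hcop
  obtain ⟨k, hk, e3, e2⟩ := hlift G (MulDistribMulAction.toMulAut A3 G c3)
    (MulDistribMulAction.toMulAut A3 G s2) K g hφ3 hτ2 hτφ inferInstance hKc
    (fun k hk => hK c3 k hk) (fun k hk => hK s2 k hk) h3 h2
  have h1 : g * k = 1 := hfpf _ (fixed_all _ e3 e2)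
  have h4 : g = k⁻¹ := eq_inv_of_mul_eq_one_left h1
  rw [h4]
  exact K.inv_mem hk

/-- A minimal normal invariant subgroup of a solvable group is commutative. -/
theorem min_abelian {G : Type u} [Group G] [Finite G] [Group.IsSolvable G]
    [MulDistribMulAction A3 G] (N : Subgroup G) [N.Normal]
    (hinv : ∀ a : A3, ∀ x ∈ N, a • x ∈ N) (hne : N ≠ ⊥)
    (hmin : ∀ W : Subgroup G, W ≤ N → W.Normal → (∀ a : A3, ∀ x ∈ W, a • x ∈ W) →
      W = ⊥ ∨ W = N) :
    ∀ x ∈ N, ∀ y ∈ N, x * y = y * x := by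
  have hDle : ⁅N, N⁆ ≤ N := Subgroup.commutator_le_left N N
  have hDinv : ∀ a : A3, ∀ x ∈ ⁅N, N⁆, a • x ∈ ⁅N, N⁆ := by
    intro a x hx
    have h1 : (MulDistribMulAction.toMonoidHom G a) x ∈
        (⁅N, N⁆).map (MulDistribMulAction.toMonoidHom G a) := Subgroup.mem_map_of_mem _ hx
    rw [Subgroup.map_commutator] at h1
    have h2 : N.map (MulDistribMulAction.toMonoidHom G a) ≤ N := by
      rintro _ ⟨y, hy, rfl⟩
      exact hinv a y hy
    exact Subgroup.commutator_mono h2 h2 h1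
  rcases hmin ⁅N, N⁆ hDle inferInstance hDinv with hD | hD
  · intro x hx y hy
    have h1 : ⁅x, y⁆ ∈ ⁅N, N⁆ := Subgroup.commutator_mem_commutator hx hy
    rw [hD, Subgroup.mem_bot] at h1
    exact commutatorElement_eq_one_iff_mul_comm.mp h1
  · exfalso
    have hk : ∀ k, N ≤ derivedSeries G k := by
      intro k
      induction k with
      | zero => rw [derivedSeries_zero]; exact le_top
      | succ k ih =>
        rw [derivedSeries_succ]
        calc N = ⁅N, N⁆ := hD.symm
          _ ≤ _ := Subgroup.commutator_mono ih ih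
    obtain ⟨n, hn⟩ := (Group.isSolvable_def G).mp inferInstance
    exact hne (le_bot_iff.mp (hn ▸ hk n))

/-- A minimal normal invariant commutative subgroup has prime exponent. -/
theorem min_exp {G : Type u} [Group G] [Finite G]
    [MulDistribMulAction A3 G] (N : Subgroup G) [N.Normal]
    (hinv : ∀ a : A3, ∀ x ∈ N, a • x ∈ N) (hne : N ≠ ⊥)
    (hmin : ∀ W : Subgroup G, W ≤ N → W.Normal → (∀ a : A3, ∀ x ∈ W, a • x ∈ W) →
      W = ⊥ ∨ W = N)
    (hab : ∀ x ∈ N, ∀ y ∈ N, x * y = y * x) :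
    ∃ p : ℕ, p.Prime ∧ ∀ x ∈ N, x ^ p = 1 := by
  have hcard : Nat.card N ≠ 1 := by
    intro h
    exact hne (Subgroup.card_eq_one.mp h)
  have hp : (Nat.card N).minFac.Prime := Nat.minFac_prime hcard
  refine ⟨(Nat.card N).minFac, hp, ?_⟩
  haveI : Fact (Nat.card N).minFac.Prime := ⟨hp⟩
  obtain ⟨x0, hx0⟩ := exists_prime_orderOf_dvd_card' (G := N) (Nat.card N).minFac
    (Nat.minFac_dvd _)
  let Ω : Subgroup G :=
    { carrier := {x | x ∈ N ∧ x ^ (Nat.card N).minFac = 1}
      mul_mem' := by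
        rintro a b ⟨ha, ha'⟩ ⟨hb, hb'⟩
        refine ⟨N.mul_mem ha hb, ?_⟩
        have hc : Commute a b := hab a ha b hb
        rw [hc.mul_pow, ha', hb', one_mul]
      one_mem' := ⟨N.one_mem, one_pow _⟩
      inv_mem' := by
        rintro a ⟨ha, ha'⟩
        exact ⟨N.inv_mem ha, by rw [inv_pow, ha', inv_one]⟩ }
  have hΩle : Ω ≤ N := fun x hx => hx.1
  have hΩn : Ω.Normal := by
    refine ⟨fun x hx g => ⟨?_, ?_⟩⟩
    · exact Subgroup.Normal.conj_mem inferInstance x hx.1 g
    · rw [conj_pow, hx.2, mul_one, mul_inv_cancel]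
  have hΩi : ∀ a : A3, ∀ x ∈ Ω, a • x ∈ Ω := by
    intro a x hx
    exact ⟨hinv a x hx.1, by rw [← smul_pow', hx.2, smul_one]⟩
  rcases hmin Ω hΩle hΩn hΩi with h | h
  · exfalso
    have h1 : (x0 : G) ∈ Ω := by
      refine ⟨x0.2, ?_⟩
      have := pow_orderOf_eq_one x0
      rw [hx0] at this
      exact_mod_cast congrArg Subtype.val this
    rw [h, Subgroup.mem_bot] at h1
    have h2 : x0 = 1 := Subtype.ext h1
    rw [h2, orderOf_one] at hx0
    exact hp.one_lt.ne hx0
  · intro x hx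
    have : x ∈ Ω := h ▸ hx
    exact this.2

/-- The induced action on the quotient by an invariant normal subgroup. -/
@[reducible] def quotAct {G : Type u} [Group G] [MulDistribMulAction A3 G] (N : Subgroup G) [N.Normal]
    (hinv : ∀ a : A3, ∀ x ∈ N, a • x ∈ N) : MulDistribMulAction A3 (G ⧸ N) where
  smul a q := QuotientGroup.map N N (MulDistribMulAction.toMonoidHom G a)
    (show N ≤ N.comap (MulDistribMulAction.toMonoidHom G a) from fun x hx => hinv a x hx) q
  one_smul q := by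
    induction q using QuotientGroup.induction_on with
    | H g => exact congrArg (QuotientGroup.mk : G → G ⧸ N) (one_smul A3 g)
  mul_smul a b q := by
    induction q using QuotientGroup.induction_on with
    | H g => exact congrArg (QuotientGroup.mk : G → G ⧸ N) (mul_smul a b g)
  smul_mul a q r := map_mul _ q r
  smul_one a := map_one _

theorem quotAct_mk {G : Type u} [Group G] [MulDistribMulAction A3 G] (N : Subgroup G) [N.Normal]
    (hinv : ∀ a : A3, ∀ x ∈ N, a • x ∈ N) (a : A3) (g : G) :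
    letI := quotAct N hinv
    a • (g : G ⧸ N) = ((a • g : G) : G ⧸ N) := rfl

/-- commutative group structure on a commutative subgroup -/
@[reducible] def commGroupOf {G : Type u} [Group G] (N : Subgroup G)
    (hab : ∀ x ∈ N, ∀ y ∈ N, x * y = y * x) : CommGroup ↥N :=
  { (inferInstance : Group ↥N) with mul_comm := fun a b => Subtype.ext (hab a a.2 b b.2) }

/-- restriction of the action to an invariant subgroup -/
def resAct {G : Type u} [Group G] [MulDistribMulAction A3 G] (N : Subgroup G)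
    (hinv : ∀ a : A3, ∀ x ∈ N, a • x ∈ N) : A3 →* MulAut ↥N where
  toFun a :=
    { toFun := fun x => ⟨a • (x : G), hinv a x x.2⟩
      invFun := fun x => ⟨a⁻¹ • (x : G), hinv a⁻¹ x x.2⟩
      left_inv := fun x => Subtype.ext (inv_smul_smul a (x : G))
      right_inv := fun x => Subtype.ext (smul_inv_smul a (x : G))
      map_mul' := fun x y => Subtype.ext (smul_mul' a (x : G) (y : G)) }
  map_one' := MulEquiv.ext fun x => Subtype.ext (one_smul A3 (x : G))
  map_mul' a b := MulEquiv.ext fun x => Subtype.ext (mul_smul a b (x : G))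

theorem comm_centralizes (hcore : CoreStmt.{u}) (hlift : LiftStmt.{u}) {G : Type u} [Group G]
    [Finite G] [Group.IsSolvable G] [MulDistribMulAction A3 G] (hcop : (Nat.card G).Coprime 6)
    (hfpf : ∀ g : G, (∀ a : A3, a • g = g) → g = 1) (N : Subgroup G) [N.Normal]
    (hinv : ∀ a : A3, ∀ x ∈ N, a • x ∈ N) (hab : ∀ x ∈ N, ∀ y ∈ N, x * y = y * x)
    (p : ℕ) (hp : p.Prime) (hexp : ∀ x ∈ N, x ^ p = 1) (hne : N ≠ ⊥)
    (hmin : ∀ W : Subgroup G, W ≤ N → W.Normal → (∀ a : A3, ∀ x ∈ W, a • x ∈ W) →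
      W = ⊥ ∨ W = N) :
    ∀ g₁ g₂ : G, ∀ n ∈ N, (g₁ * g₂ * g₁⁻¹ * g₂⁻¹) * n = n * (g₁ * g₂ * g₁⁻¹ * g₂⁻¹) := by
  letI cg : CommGroup ↥N := commGroupOf N hab
  set ρ : G →* MulAut ↥N := MulAut.conjNormal with hρ
  set fb : MulAut ↥N := resAct N hinv c3 with hfb
  set tb : MulAut ↥N := resAct N hinv s2 with htb
  have hconj : ∀ (a : A3) (g : G), resAct N hinv a * ρ g * (resAct N hinv a)⁻¹ = ρ (a • g) := by
    intro a g
    apply MulEquiv.ext
    intro n
    apply Subtype.ext
    show a • (g * (a⁻¹ • (n : G)) * g⁻¹) = (a • g) * (n : G) * (a • g)⁻¹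
    rw [smul_mul', smul_mul', smul_inv', smul_inv_smul]
  have hS3 : S3 fb tb := by
    refine ⟨?_, ?_, ?_⟩
    · rw [hfb, ← map_pow, c3_pow, map_one]
    · rw [htb, ← map_pow, s2_pow, map_one]
    · rw [hfb, htb, ← map_inv, ← map_inv, ← map_mul, ← map_mul, s2_c3]
  have hkerinv : ∀ a : A3, ∀ k ∈ ρ.ker, a • k ∈ ρ.ker := by
    intro a k hk
    rw [MonoidHom.mem_ker] at hk ⊢
    rw [← hconj, hk, mul_one, mul_inv_cancel]
  have hAct : Act ρ.range fb tb := by
    refine ⟨hS3, ?_, ?_, ?_, ?_⟩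
    · rintro _ ⟨g, rfl⟩
      rw [hfb, hconj]
      exact ⟨_, rfl⟩
    · rintro _ ⟨g, rfl⟩
      rw [htb, hconj]
      exact ⟨_, rfl⟩
    · exact Nat.Coprime.coprime_dvd_left (Subgroup.card_range_dvd ρ) hcop
    · rintro _ ⟨g, rfl⟩ h3 h2
      rw [hfb, hconj] at h3
      rw [htb, hconj] at h2
      have h3' : g⁻¹ * c3 • g ∈ ρ.ker := by
        rw [MonoidHom.mem_ker, map_mul, map_inv, h3, inv_mul_cancel]
      have h2' : g⁻¹ * s2 • g ∈ ρ.ker := by
        rw [MonoidHom.mem_ker, map_mul, map_inv, h2, inv_mul_cancel]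
      exact MonoidHom.mem_ker.mp (lift_fixed hlift hcop hfpf ρ.ker hkerinv g h3' h2')
  have hMod : Mod p fb tb := by
    refine ⟨hp, ?_, ?_, ?_⟩
    · intro v
      apply Subtype.ext
      exact hexp v v.2
    · intro v h3 h2
      apply Subtype.ext
      refine hfpf _ (fixed_all _ ?_ ?_)
      · exact congrArg Subtype.val h3
      · exact congrArg Subtype.val h2
    · by_contra hcon
      push Not at hcon
      apply hne
      rw [Subgroup.eq_bot_iff_forall]
      intro x hx
      exact congrArg Subtype.val (hcon ⟨x, hx⟩)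
  have hIrr : Irr ρ.range fb tb := by
    intro W hH hf ht
    have hWn : (W.map N.subtype).Normal := by
      refine ⟨?_⟩
      rintro _ ⟨w, hw, rfl⟩ g
      exact ⟨ρ g w, hH (ρ g) ⟨g, rfl⟩ w hw, rfl⟩
    have hWi : ∀ a : A3, ∀ x ∈ W.map N.subtype, a • x ∈ W.map N.subtype := by
      intro a
      apply inv_all
      · rintro _ ⟨w, hw, rfl⟩
        exact ⟨fb w, hf w hw, rfl⟩
      · rintro _ ⟨w, hw, rfl⟩
        exact ⟨tb w, ht w hw, rfl⟩
    rcases hmin (W.map N.subtype) (Subgroup.map_subtype_le W) hWn hWi with h | h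
    · left
      exact (Subgroup.map_eq_bot_iff_of_injective W N.subtype_injective).mp h
    · right
      rw [Subgroup.eq_top_iff']
      intro x
      have hx : (x : G) ∈ W.map N.subtype := by rw [h]; exact x.2
      obtain ⟨w, hw, hwx⟩ := hx
      have : w = x := Subtype.ext hwx
      exact this ▸ hw
  have hSol : Group.IsSolvable ρ.range := Group.isSolvable_of_surjective ρ.rangeRestrict_surjective
  have hcomm : Comm ρ.range := hcore ↥N p ρ.range fb tb hAct hMod hIrr hSol
  intro g₁ g₂ n hn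
  have h1 : ρ (g₁ * g₂ * g₁⁻¹ * g₂⁻¹) = 1 := by
    rw [map_mul, map_mul, map_mul, map_inv, map_inv, hcomm (ρ g₁) ⟨g₁, rfl⟩ (ρ g₂) ⟨g₂, rfl⟩]
    group
  have h2 : ((ρ (g₁ * g₂ * g₁⁻¹ * g₂⁻¹)) ⟨n, hn⟩ : G) = n := by rw [h1]; rfl
  have h3 : (g₁ * g₂ * g₁⁻¹ * g₂⁻¹) * n * (g₁ * g₂ * g₁⁻¹ * g₂⁻¹)⁻¹ = n := h2
  calc (g₁ * g₂ * g₁⁻¹ * g₂⁻¹) * n
      = ((g₁ * g₂ * g₁⁻¹ * g₂⁻¹) * n * (g₁ * g₂ * g₁⁻¹ * g₂⁻¹)⁻¹) * (g₁ * g₂ * g₁⁻¹ * g₂⁻¹) := by
        group
    _ = n * (g₁ * g₂ * g₁⁻¹ * g₂⁻¹) := by rw [h3]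

theorem main_aux (hcore : CoreStmt.{u}) (hlift : LiftStmt.{u}) (n : ℕ) :
    ∀ (G : Type u) [Group G] [Finite G] [Group.IsSolvable G] [MulDistribMulAction A3 G],
      Nat.card G = n → (Nat.card G).Coprime 6 → (∀ g : G, (∀ a : A3, a • g = g) → g = 1) →
      Group.IsNilpotent ↥(commutator G) := by
  induction n using Nat.strong_induction_on with
  | _ n ih =>
  intro G _ _ _ _ hn hcop hfpf
  by_cases htriv : Subsingleton G
  · infer_instance
  · rw [not_subsingleton_iff_nontrivial] at htriv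
    obtain ⟨N, ⟨hNn, hNinv, hNne⟩, hNm⟩ := exists_minimal_of_wellFoundedLT
      (fun N : Subgroup G => N.Normal ∧ (∀ a : A3, ∀ x ∈ N, a • x ∈ N) ∧ N ≠ ⊥)
      ⟨⊤, inferInstance, fun _ _ _ => Subgroup.mem_top _, top_ne_bot⟩
    haveI := hNn
    have hmin : ∀ W : Subgroup G, W ≤ N → W.Normal → (∀ a : A3, ∀ x ∈ W, a • x ∈ W) →
        W = ⊥ ∨ W = N := by
      intro W hW hWn hWi
      by_cases hW0 : W = ⊥
      · exact Or.inl hW0
      · exact Or.inr (le_antisymm hW (hNm ⟨hWn, hWi, hW0⟩ hW))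
    have hab := min_abelian N hNinv hNne hmin
    obtain ⟨p, hp, hexp⟩ := min_exp N hNinv hNne hmin hab
    have hcen := comm_centralizes hcore hlift hcop hfpf N hNinv hab p hp hexp hNne hmin
    have hle : commutator G ≤ Subgroup.centralizer (N : Set G) := by
      rw [commutator_def, Subgroup.commutator_le]
      intro g₁ _ g₂ _
      rw [Subgroup.mem_centralizer_iff]
      intro n hn
      rw [commutatorElement_def]
      exact (hcen g₁ g₂ n hn).symm
    -- the quotient
    letI : MulDistribMulAction A3 (G ⧸ N) := quotAct N hNinv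
    have hlt : Nat.card (G ⧸ N) < n := by
      rw [← hn, Subgroup.card_eq_card_quotient_mul_card_subgroup N]
      exact lt_mul_of_one_lt_right Nat.card_pos (N.one_lt_card_iff_ne_bot.mpr hNne)
    have hcopQ : (Nat.card (G ⧸ N)).Coprime 6 :=
      Nat.Coprime.coprime_dvd_left (Subgroup.card_quotient_dvd_card N) hcop
    have hfpfQ : ∀ q : G ⧸ N, (∀ a : A3, a • q = q) → q = 1 := by
      intro q
      induction q using QuotientGroup.induction_on with
      | H g =>
        intro h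
        have h3 : ((c3 • g : G) : G ⧸ N) = (g : G ⧸ N) := h c3
        have h2 : ((s2 • g : G) : G ⧸ N) = (g : G ⧸ N) := h s2
        have h3' : g⁻¹ * c3 • g ∈ N := QuotientGroup.eq.mp h3.symm
        have h2' : g⁻¹ * s2 • g ∈ N := QuotientGroup.eq.mp h2.symm
        exact (QuotientGroup.eq_one_iff g).mpr (lift_fixed hlift hcop hfpf N hNinv g h3' h2')
    have hQ : Group.IsNilpotent ↥(commutator (G ⧸ N)) := ih _ hlt (G ⧸ N) rfl hcopQ hfpfQ
    -- conclusion
    let f0 : ↥(commutator G) →* G ⧸ N := (QuotientGroup.mk' N).comp (commutator G).subtype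
    have hkey : ∀ y ∈ commutator G, (QuotientGroup.mk' N) y ∈ commutator (G ⧸ N) := by
      intro y hy
      have h1 : (QuotientGroup.mk' N) y ∈ (commutator G).map (QuotientGroup.mk' N) :=
        Subgroup.mem_map_of_mem _ hy
      rw [commutator_def, Subgroup.map_commutator] at h1
      rw [commutator_def]
      exact Subgroup.commutator_mono le_top le_top h1
    have hf0 : ∀ x, f0 x ∈ commutator (G ⧸ N) := fun x => hkey x x.2
    let f : ↥(commutator G) →* ↥(commutator (G ⧸ N)) := f0.codRestrict _ hf0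
    refine Subgroup.isNilpotent_of_ker_le_center f ?_
    intro x hx
    rw [Subgroup.mem_center_iff]
    intro y
    have hxN : (x : G) ∈ N := by
      have h1 : f x = 1 := hx
      have h2 : f0 x = 1 := congrArg Subtype.val h1
      exact (QuotientGroup.eq_one_iff _).mp h2
    apply Subtype.ext
    exact (Subgroup.mem_centralizer_iff.mp (hle y.2) x hxN).symm

/-- S4305 from the module theorem. -/
theorem main (hcore : CoreStmt.{u}) (hlift : LiftStmt.{u}) : MainStmt.{u} := by
  intro G _ _ _ _ hcop hfpf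
  exact main_aux hcore hlift (Nat.card G) G rfl hcop hfpf

end Cfsg.Agent.Lib.Helper60.S3F
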