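import Mathlib

/-!
# S5976 project "S76" (helper47), piece INV1A: the characteristic polynomial of a symplectic
involution in odd characteristic

Statement from `tools/helper47/S76Skel.lean.txt` (note 1810).  Mathlib only.
-/

set_option autoImplicit false

universe u

namespace Cfsg.Agent.Lib.Helper60.S76INV1A

open Matrix Polynomial

variable {F : Type u} [Field F]

/-- a root of the characteristic polynomial of an involution is `1` or `-1` -/
theorem root_of_invol {n : Type*} [Fintype n] [DecidableEq n] {K : Type*} [Field K]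
    (M : Matrix n n K) (hM : M * M = 1) (μ : K) (hμ : M.charpoly.IsRoot μ) :
    μ = 1 ∨ μ = -1 := by
  have h1 : (M.charpoly).eval μ = 0 := hμ
  rw [Matrix.eval_charpoly] at h1
  obtain ⟨v, hv0, hv⟩ := Matrix.exists_mulVec_eq_zero_iff.mpr h1
  have hev : M *ᵥ v = μ • v := by
    rw [Matrix.sub_mulVec] at hv
    have h2 : Matrix.scalar n μ *ᵥ v = μ • v := by
      rw [Matrix.scalar_apply, ← Matrix.smul_one_eq_diagonal, Matrix.smul_mulVec,
        Matrix.one_mulVec]
    rw [h2] at hv
    exact (sub_eq_zero.mp hv).symm
  have h2 : v = (μ * μ) • v := by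
    calc v = (M * M) *ᵥ v := by rw [hM, Matrix.one_mulVec]
      _ = M *ᵥ (M *ᵥ v) := (Matrix.mulVec_mulVec v M M).symm
      _ = (μ * μ) • v := by rw [hev, Matrix.mulVec_smul, hev, smul_smul]
  have h3 : (1 - μ * μ) • v = 0 := by
    rw [sub_smul, one_smul, ← h2, sub_self]
  rcases smul_eq_zero.mp h3 with h | h
  · have h4 : (μ - 1) * (μ + 1) = 0 := by linear_combination -h
    rcases mul_eq_zero.mp h4 with h' | h'
    · left
      exact sub_eq_zero.mp h'
    · right
      exact eq_neg_of_add_eq_zero_left h'
  · exact absurd h hv0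

/-- the characteristic polynomial of an involution in characteristic `≠ 2` -/
theorem charpoly_of_invol {n : Type*} [Fintype n] [DecidableEq n] (h2 : (2 : F) ≠ 0)
    (Y : Matrix n n F) (hY2 : Y * Y = 1) :
    ∃ m k : ℕ, Y.charpoly = (X - C (1 : F)) ^ m * (X + C (1 : F)) ^ k := by
  classical
  have hinj : Function.Injective (Polynomial.map (algebraMap F (AlgebraicClosure F))) :=
    Polynomial.map_injective _ (algebraMap F (AlgebraicClosure F)).injective
  have hpc : Y.charpoly.map (algebraMap F (AlgebraicClosure F)) =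
      (Y.map (algebraMap F (AlgebraicClosure F))).charpoly :=
    (Matrix.charpoly_map Y _).symm
  have hmonic : (Y.charpoly.map (algebraMap F (AlgebraicClosure F))).Monic :=
    (Matrix.charpoly_monic Y).map _
  have hprod := (IsAlgClosed.splits
    (Y.charpoly.map (algebraMap F (AlgebraicClosure F)))).eq_prod_roots_of_monic hmonic
  have hYK : Y.map (algebraMap F (AlgebraicClosure F)) * Y.map (algebraMap F (AlgebraicClosure F))
      = 1 := by
    have h3 : Y.map (algebraMap F (AlgebraicClosure F)) =
        (algebraMap F (AlgebraicClosure F)).mapMatrix Y := rfl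
    rw [h3, ← map_mul, hY2, map_one]
  have hroots : ∀ a ∈ (Y.charpoly.map (algebraMap F (AlgebraicClosure F))).roots,
      a = 1 ∨ a = -1 := by
    intro a ha
    have hr := (Polynomial.mem_roots hmonic.ne_zero).mp ha
    rw [hpc] at hr
    exact root_of_invol _ hYK a hr
  have h1ne : (1 : AlgebraicClosure F) ≠ -1 := by
    intro h
    have h4 : (algebraMap F (AlgebraicClosure F)) 2 = 0 := by
      rw [map_ofNat]
      linear_combination h
    exact h2 ((map_eq_zero _).mp h4)
  have hs : (Y.charpoly.map (algebraMap F (AlgebraicClosure F))).roots =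
      Multiset.replicate ((Y.charpoly.map (algebraMap F (AlgebraicClosure F))).roots.count 1) 1 +
      Multiset.replicate ((Y.charpoly.map (algebraMap F (AlgebraicClosure F))).roots.count (-1))
        (-1) := by
    ext a
    rw [Multiset.count_add, Multiset.count_replicate, Multiset.count_replicate]
    by_cases ha1 : a = 1
    · subst ha1
      rw [if_pos rfl, if_neg h1ne.symm, add_zero]
    · by_cases ha2 : a = -1
      · subst ha2
        rw [if_neg h1ne, if_pos rfl, zero_add]
      · have hnot : a ∉ (Y.charpoly.map (algebraMap F (AlgebraicClosure F))).roots := by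
          intro h
          rcases hroots a h with h | h
          · exact ha1 h
          · exact ha2 h
        rw [Multiset.count_eq_zero_of_notMem hnot, if_neg (Ne.symm ha1), if_neg (Ne.symm ha2)]
  refine ⟨(Y.charpoly.map (algebraMap F (AlgebraicClosure F))).roots.count 1,
    (Y.charpoly.map (algebraMap F (AlgebraicClosure F))).roots.count (-1), ?_⟩
  apply hinj
  rw [hprod]
  conv_lhs => rw [hs]
  rw [Multiset.map_add, Multiset.prod_add, Multiset.map_replicate, Multiset.map_replicate,
    Multiset.prod_replicate, Multiset.prod_replicate]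
  simp

-- PIECE INV1A
theorem charpoly_invol (d : ℕ) (h2 : (2 : F) ≠ 0) (Y : Matrix (Fin d ⊕ Fin d) (Fin d ⊕ Fin d) F)
    (hY : Y ∈ Matrix.symplecticGroup (Fin d) F) (hY2 : Y * Y = 1) :
    ∃ a : ℕ, a ≤ d ∧ Y.charpoly = (X - C (1 : F)) ^ (2 * a) * (X + C (1 : F)) ^ (2 * (d - a)) := by
  classical
  obtain ⟨m, k, hF⟩ := charpoly_of_invol h2 Y hY2
  have hdeg : m + k = 2 * d := by
    have h1 := Matrix.charpoly_natDegree_eq_dim Y
    rw [hF] at h1
    have h3 : ((X - C (1 : F)) ^ m * (X + C (1 : F)) ^ k).natDegree = m + k := by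
      rw [Polynomial.natDegree_mul (pow_ne_zero _ (X_sub_C_ne_zero 1))
        (pow_ne_zero _ (X_add_C_ne_zero 1)), natDegree_pow, natDegree_pow, natDegree_X_sub_C,
        natDegree_X_add_C]
      ring
    rw [h3] at h1
    simp at h1
    omega
  have hdet : Y.det = 1 := SymplecticGroup.det_eq_one hY
  have hpar : Even m := by
    by_contra hodd
    rw [Nat.not_even_iff_odd] at hodd
    have h3 := Matrix.det_eq_sign_charpoly_coeff Y
    rw [hdet, hF, Polynomial.coeff_zero_eq_eval_zero] at h3
    simp only [Fintype.card_sum, Fintype.card_fin, eval_mul, eval_pow, eval_sub, eval_add, eval_X,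
      eval_C, zero_sub, zero_add, one_pow, mul_one] at h3
    rw [← two_mul, pow_mul, neg_one_sq, one_pow, one_mul, hodd.neg_one_pow] at h3
    apply h2
    linear_combination h3
  obtain ⟨a, ha⟩ := hpar
  refine ⟨a, by omega, ?_⟩
  rw [hF]
  have e1 : m = 2 * a := by omega
  have e2 : k = 2 * (d - a) := by omega
  rw [e1, e2]

end Cfsg.Agent.Lib.Helper60.S76INV1A
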