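import Mathlib
import Cfsg.Prelude.Def_GeometricClasses
import Cfsg.Prelude.Def_LieClassical
import Cfsg.Agent.Lib.Helper91.O9T7

/-! SPG piece TS7 (helper60, for helper71's project SPG, S5662): transport of the tensor-power
clause along `e : κ ≃ Fin n`.  This is the piece `T7` of project O9 (helper91). -/

set_option autoImplicit false
set_option linter.unusedSectionVars false
set_option linter.unusedVariables false

namespace Cfsg.Agent.Lib.Helper60.SPGTS7

open Matrix Cfsg.Geo
open scoped Kronecker

variable {n : ℕ} {F : Type*} [Field F] [Fintype F]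
variable {κ : Type} [Fintype κ] [DecidableEq κ]

/-- the transported two-argument form on `Fin n → F` -/
def tf (e : κ ≃ Fin n) (f : (κ → F) → (κ → F) → F) : (Fin n → F) → (Fin n → F) → F :=
  fun u v => f (u ∘ e) (v ∘ e)

/-- TS7: transport of the tensor-power clause along `e : κ ≃ Fin n`. -/
theorem TS7 (e : κ ≃ Fin n) (f : (κ → F) → (κ → F) → F) (H : Subgroup (GL κ F)) {d t : ℕ}
    (e' : Fin n ≃ (Fin t → Fin d)) (P' : GL (Fin n) F) (f₁ : (Fin d → F) → (Fin d → F) → F) :
    (H.map (glReindex e).toMonoidHom ≤ tensorWreathSubgroup d t e' P' →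
      H ≤ tensorWreathSubgroup d t (e.trans e') ((glReindex e).symm P')) ∧
    (IsTensorPowerFormStructure id (tf e f) f₁ e' P' →
      IsTensorPowerFormStructure id f f₁ (e.trans e') ((glReindex e).symm P')) :=
  Cfsg.Agent.Lib.Helper44.O9.T7 e f H e' P' f₁

end Cfsg.Agent.Lib.Helper60.SPGTS7
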