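import Mathlib
import Cfsg.Prelude.Def_LieRecognition

set_option autoImplicit false
set_option linter.unusedSectionVars false
set_option linter.style.haveILetI false

/-! The matrix group of type A (helper60). -/

namespace Cfsg.Agent.Lib.Helper60

section MatA

variable {F : Type*} [Field F] (φ : F →+* F)

/-- The matrix of an element of the type A group. -/
def mA (x y : F) : Matrix (Fin 3) (Fin 3) F := !![1, 0, 0; x, 1, 0; y, φ x, 1]

theorem mA_mul (x y x' y' : F) :
    mA φ x y * mA φ x' y' = mA φ (x + x') (y + y' + φ x * x') := by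
  unfold mA
  rw [Matrix.mul_fin_three]
  ext i j
  fin_cases i <;> fin_cases j <;> simp <;> ring

theorem mA_zero : mA φ 0 0 = 1 := by
  unfold mA
  ext i j
  fin_cases i <;> fin_cases j <;> simp

theorem mA_det (x y : F) : (mA φ x y).det = 1 := by
  unfold mA
  rw [Matrix.det_fin_three]
  simp

/-- The element of `GL₃` with matrix `mA φ x y`. -/
noncomputable def gA (x y : F) : GL (Fin 3) F :=
  Matrix.GeneralLinearGroup.mkOfDetNeZero (mA φ x y) (by rw [mA_det]; exact one_ne_zero)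

theorem gA_coe (x y : F) : ((gA φ x y : GL (Fin 3) F) : Matrix (Fin 3) (Fin 3) F) = mA φ x y :=
  rfl

theorem gA_mul (x y x' y' : F) : gA φ x y * gA φ x' y' = gA φ (x + x') (y + y' + φ x * x') := by
  apply Units.ext
  rw [Units.val_mul, gA_coe, gA_coe, gA_coe, mA_mul]

theorem gA_zero : gA φ 0 0 = 1 := by
  apply Units.ext
  rw [gA_coe, mA_zero]
  rfl

theorem gA_inv (x y : F) : (gA φ x y)⁻¹ = gA φ (-x) (-y + φ x * x) := by
  apply inv_eq_of_mul_eq_one_right
  rw [gA_mul, ← gA_zero φ]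
  congr 1 <;> ring

theorem gA_entry10 (x y : F) : ((gA φ x y : GL (Fin 3) F) : Matrix (Fin 3) (Fin 3) F) 1 0 = x := by
  rw [gA_coe]
  simp [mA]

theorem gA_entry20 (x y : F) : ((gA φ x y : GL (Fin 3) F) : Matrix (Fin 3) (Fin 3) F) 2 0 = y := by
  rw [gA_coe]
  simp [mA]

theorem gA_injective {x y x' y' : F} (h : gA φ x y = gA φ x' y') : x = x' ∧ y = y' := by
  constructor
  · rw [← gA_entry10 φ x y, h, gA_entry10]
  · rw [← gA_entry20 φ x y, h, gA_entry20]

/-- The set of matrices of type A is a subgroup. -/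
def TA : Subgroup (GL (Fin 3) F) where
  carrier := {g | ∃ x y : F, (g : Matrix (Fin 3) (Fin 3) F) = !![1, 0, 0; x, 1, 0; y, φ x, 1]}
  mul_mem' := by
    rintro a b ⟨x, y, ha⟩ ⟨x', y', hb⟩
    refine ⟨x + x', y + y' + φ x * x', ?_⟩
    rw [Units.val_mul, ha, hb]
    exact mA_mul φ x y x' y'
  one_mem' := ⟨0, 0, (mA_zero φ).symm⟩
  inv_mem' := by
    rintro a ⟨x, y, ha⟩
    have h : a = gA φ x y := Units.ext ha
    refine ⟨-x, -y + φ x * x, ?_⟩
    rw [h, gA_inv]
    rfl

theorem suzukiTypeA_eq : Cfsg.suzukiTypeA F φ = TA φ := Subgroup.closure_eq (TA φ)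

theorem gA_mem (x y : F) : gA φ x y ∈ Cfsg.suzukiTypeA F φ := by
  rw [suzukiTypeA_eq]
  exact ⟨x, y, rfl⟩

theorem exists_gA_of_mem {g : GL (Fin 3) F} (hg : g ∈ Cfsg.suzukiTypeA F φ) :
    ∃ x y, g = gA φ x y := by
  rw [suzukiTypeA_eq] at hg
  obtain ⟨x, y, h⟩ := hg
  exact ⟨x, y, Units.ext h⟩

end MatA

end Cfsg.Agent.Lib.Helper60
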