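import Mathlib
import Cfsg.Agent.S1137
import Cfsg.Agent.Lib.Helper60.SuzExt
import Cfsg.Agent.Lib.Helper60.SuzAlg
import Cfsg.Agent.Lib.Helper60.SuzMat

set_option autoImplicit false
set_option linter.unusedSectionVars false
set_option linter.style.haveILetI false

/-! Suzuki 2-groups of order `q²` are of type A (helper60). -/

namespace Cfsg.Agent.Lib.Helper60

open scoped commutatorElement

theorem comm_sq_formula {P : Type*} [Group P] (x y : P) (hc : ⁅y, x⁆ ∈ Subgroup.center P) :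
    (x * y) * (x * y) = ⁅y, x⁆ * (x * x) * (y * y) := by
  have h := Subgroup.mem_center_iff.mp hc
  have e1 : y * x = ⁅y, x⁆ * x * y := by rw [commutatorElement_def]; group
  calc x * y * (x * y) = x * (y * x) * y := by group
    _ = x * (⁅y, x⁆ * x * y) * y := by rw [e1]
    _ = (x * ⁅y, x⁆) * x * y * y := by group
    _ = (⁅y, x⁆ * x) * x * y * y := by rw [h x]
    _ = ⁅y, x⁆ * (x * x) * (y * y) := by group

theorem comm_mul_right_of_central {P : Type*} [Group P] (y x x' : P)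
    (hc : ⁅y, x'⁆ ∈ Subgroup.center P) : ⁅y, x * x'⁆ = ⁅y, x⁆ * ⁅y, x'⁆ := by
  have h := Subgroup.mem_center_iff.mp hc
  calc ⁅y, x * x'⁆ = ⁅y, x⁆ * (x * ⁅y, x'⁆ * x⁻¹) := by
        simp only [commutatorElement_def]; group
    _ = ⁅y, x⁆ * (⁅y, x'⁆ * x * x⁻¹) := by rw [h x]
    _ = ⁅y, x⁆ * ⁅y, x'⁆ := by group

theorem sq_mul_central' {P : Type*} [Group P] (x e : P) (he : e ∈ Subgroup.center P)
    (he2 : e * e = 1) : (x * e) * (x * e) = x * x := by
  have hc := Subgroup.mem_center_iff.mp he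
  calc x * e * (x * e) = x * (e * x) * e := by group
    _ = x * (x * e) * e := by rw [← hc x]
    _ = x * x * (e * e) := by group
    _ = x * x := by rw [he2, mul_one]

/-- **Higman**: a Suzuki 2-group of order `|Z|²` is of type A. -/
theorem suzuki_typeA {P : Type*} [Group P] (hP : Cfsg.IsSuzukiTwoGroup P)
    (hcard : Nat.card P = Nat.card (Subgroup.center P) ^ 2) :
    ∃ (F : Type) (_ : Field F) (_ : Fintype F) (φ : F ≃+* F),
      Fintype.card F = Nat.card (Subgroup.center P) ∧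
      φ ≠ RingEquiv.refl F ∧ Odd (orderOf φ) ∧
      Nonempty (P ≃* Cfsg.suzukiTypeA F (φ : F →+* F)) := by
  classical
  obtain ⟨hinv, hZ2⟩ := Cfsg.Agent.S1137.result hP
  obtain ⟨hfin, hp, hnab, htwo, K, hK, hreg⟩ := hP
  haveI := hfin
  haveI := hK
  have hsq1 : ∀ x : P, x * x = 1 → x ∈ Subgroup.center P := by
    intro x hx
    by_cases h1 : x = 1
    · rw [h1]; exact Subgroup.one_mem _
    · exact ((hinv x).mp ⟨h1, hx⟩).1
  have hgZ : ∀ k : MulAut P, ∀ z ∈ Subgroup.center P, k z ∈ Subgroup.center P :=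
    fun k z hz => Cfsg.Agent.S1137.aut_center k hz
  -- a generator
  obtain ⟨ξ, hξ⟩ := IsCyclic.exists_generator (α := ↥K)
  obtain ⟨g, hg⟩ : ∃ g : MulAut P, g = (ξ : MulAut P) := ⟨_, rfl⟩
  have hgK : g ∈ K := by rw [hg]; exact ξ.2
  have hKpow : ∀ k : ↥K, ∃ i : ℕ, (k : MulAut P) = g ^ i := by
    intro k
    have h3 : k ∈ Submonoid.powers ξ :=
      (isOfFinOrder_of_finite ξ).mem_powers_iff_mem_zpowers.mpr (hξ k)
    obtain ⟨i, hi⟩ := h3
    refine ⟨i, ?_⟩
    rw [← hi, hg, Subgroup.coe_pow]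
  have hfreeK : ∀ k ∈ K, ∀ y : P, y ≠ 1 → k y = y → k = 1 := by
    intro k hk y hy hky
    obtain ⟨m, hm1, hm2⟩ := Cfsg.Agent.S1137.exists_invol_pow hp hy
    have hfix : k (y ^ m) = y ^ m := by rw [map_pow, hky]
    obtain ⟨k₀, -, huniq⟩ := hreg (y ^ m) (y ^ m) hm1 hm2 hm1 hm2
    have e1 : (⟨k, hk⟩ : ↥K) = k₀ := huniq ⟨k, hk⟩ hfix
    have e2 : (1 : ↥K) = k₀ := huniq 1 rfl
    exact congrArg Subtype.val (e1.trans e2.symm)
  have hfree : ∀ k ∈ Subgroup.zpowers g, ∀ y : P, y ≠ 1 → k y = y → k = 1 :=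
    fun k hk => hfreeK k ((Subgroup.zpowers_le.mpr hgK) hk)
  -- transitivity on involutions
  have hT0 : ∀ z z' : P, z ∈ Subgroup.center P → z ≠ 1 → z' ∈ Subgroup.center P → z' ≠ 1 →
      ∃ i : ℕ, (g ^ i) z = z' := by
    intro z z' hz hz1 hz' hz'1
    obtain ⟨k, hk, -⟩ := hreg z z' hz1 (hZ2 z hz) hz'1 (hZ2 z' hz')
    obtain ⟨i, hi⟩ := hKpow k
    exact ⟨i, by rw [← hi]; exact hk⟩
  -- an element outside the centre whose square is central
  obtain ⟨x₁, hx₁, hx₁sq⟩ : ∃ x₁ : P, x₁ ∉ Subgroup.center P ∧ x₁ * x₁ ∈ Subgroup.center P := by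
    obtain ⟨x, y, hxy⟩ := hnab
    have hx : x ∉ Subgroup.center P := fun h => hxy ((Subgroup.mem_center_iff.mp h y).symm)
    have hex : ∃ j : ℕ, x ^ 2 ^ j ∈ Subgroup.center P := by
      obtain ⟨k, hk⟩ := hp x
      exact ⟨k, by rw [hk]; exact Subgroup.one_mem _⟩
    have hj := Nat.find_spec hex
    have hj0 : Nat.find hex ≠ 0 := by
      intro h0
      rw [h0, pow_zero, pow_one] at hj
      exact hx hj
    obtain ⟨j, hjj⟩ := Nat.exists_eq_succ_of_ne_zero hj0
    refine ⟨x ^ 2 ^ j, Nat.find_min hex (m := j) (by omega), ?_⟩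
    rw [← pow_add, ← two_mul, ← pow_succ', ← Nat.succ_eq_add_one, ← hjj]
    exact hj
  have hz₀1 : x₁ * x₁ ≠ 1 := fun h => hx₁ (hsq1 x₁ h)
  -- transitivity outside the centre
  have hT1 : ∀ x : P, x ∉ Subgroup.center P → ∀ y : P, y ∉ Subgroup.center P →
      ∃ i : ℕ, ∃ e ∈ Subgroup.center P, y = (g ^ i) x * e := by
    intro x hx
    exact orbit_count (Subgroup.center P) g hcard hgZ le_rfl hZ2 hsq1 hfree (x₁ * x₁) hx₁sq hz₀1
      (fun z hz hz1 => hT0 _ z hx₁sq hz₀1 hz hz1) x hx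
  have hsq_orbit : ∀ (i : ℕ) (x e : P), e ∈ Subgroup.center P →
      (g ^ i) x * e * ((g ^ i) x * e) = (g ^ i) (x * x) := by
    intro i x e he
    rw [sq_mul_central' _ e he (hZ2 e he), map_mul]
  -- all squares are central
  have hsqZ : ∀ x : P, x * x ∈ Subgroup.center P := by
    intro x
    by_cases hx : x ∈ Subgroup.center P
    · exact Subgroup.mul_mem _ hx hx
    · obtain ⟨i, e, he, rfl⟩ := hT1 x₁ hx₁ x hx
      rw [hsq_orbit i x₁ e he]
      exact hgZ _ _ hx₁sq
  have h2Q : ∀ q : P ⧸ Subgroup.center P, q * q = 1 := by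
    intro q
    induction q using QuotientGroup.induction_on with
    | H a =>
      rw [← QuotientGroup.mk_mul, QuotientGroup.eq_one_iff]
      exact hsqZ a
  have hcomm : ∀ x y : P, ⁅x, y⁆ ∈ Subgroup.center P := by
    intro x y
    have hc := mul_comm_of_sq_eq_one' h2Q (x : P ⧸ Subgroup.center P) (y : P ⧸ Subgroup.center P)
    rw [← QuotientGroup.eq_one_iff, commutatorElement_def]
    simp only [QuotientGroup.mk_mul, QuotientGroup.mk_inv]
    rw [hc]
    group
  letI instQ : CommGroup (P ⧸ Subgroup.center P) :=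
    { (inferInstance : Group (P ⧸ Subgroup.center P)) with
      mul_comm := mul_comm_of_sq_eq_one' h2Q }
  -- the induced endomorphisms
  letI instZ : CommGroup ↥(Subgroup.center P) :=
    { (inferInstance : Group ↥(Subgroup.center P)) with
      mul_comm := fun a b => Subtype.ext (Subgroup.mem_center_iff.mp b.2 a.1) }
  let gZ : ↥(Subgroup.center P) →* ↥(Subgroup.center P) :=
    { toFun := fun z => ⟨g z.1, hgZ g z.1 z.2⟩
      map_one' := Subtype.ext (map_one g)
      map_mul' := fun a b => Subtype.ext (map_mul g a.1 b.1) }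
  have hgZiter : ∀ (i : ℕ) (z : ↥(Subgroup.center P)), ((gZ^[i]) z : P) = (g ^ i) z.1 := by
    intro i
    induction i with
    | zero => intro z; rfl
    | succ i ih =>
      intro z
      rw [Function.iterate_succ_apply', pow_succ', MulAut.mul_apply, ← ih]
      rfl
  obtain ⟨F, instF, instFt, cE, lam, hcEbij, hcEmul, hcE1, hcElam⟩ :=
    singer_group gZ ⟨x₁ * x₁, hx₁sq⟩ (fun h => hz₀1 (congrArg Subtype.val h)) (by
      intro v v' hv hv'
      obtain ⟨i, hi⟩ := hT0 v.1 v'.1 v.2 (fun h => hv (Subtype.ext (h.trans rfl))) v'.2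
        (fun h => hv' (Subtype.ext (h.trans rfl)))
      exact ⟨i, Subtype.ext (by rw [hgZiter, hi])⟩)
  let gV : P ⧸ Subgroup.center P →* P ⧸ Subgroup.center P :=
    QuotientGroup.map _ _ g.toMonoidHom (fun z hz => hgZ g z hz)
  have hgV : ∀ x : P, gV (x : P ⧸ Subgroup.center P) = ((g x : P) : P ⧸ Subgroup.center P) :=
    fun x => rfl
  have hgViter : ∀ (i : ℕ) (x : P),
      (gV^[i]) (x : P ⧸ Subgroup.center P) = (((g ^ i) x : P) : P ⧸ Subgroup.center P) := by
    intro i
    induction i with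
    | zero => intro x; rfl
    | succ i ih =>
      intro x
      rw [Function.iterate_succ_apply', ih, hgV, pow_succ', MulAut.mul_apply]
  obtain ⟨FV, instFV, instFVt, cV, mu0, hcVbij, hcVmul, hcV1, hcVmu⟩ :=
    singer_group gV (x₁ : P ⧸ Subgroup.center P)
      (fun h => hx₁ ((QuotientGroup.eq_one_iff x₁).mp h)) (by
      intro v v' hv hv'
      induction v using QuotientGroup.induction_on with
      | H a =>
      induction v' using QuotientGroup.induction_on with
      | H b =>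
      have ha : a ∉ Subgroup.center P := fun h => hv ((QuotientGroup.eq_one_iff a).mpr h)
      have hb : b ∉ Subgroup.center P := fun h => hv' ((QuotientGroup.eq_one_iff b).mpr h)
      obtain ⟨i, e, he, rfl⟩ := hT1 a ha b hb
      refine ⟨i, ?_⟩
      rw [hgViter, QuotientGroup.mk_mul, (QuotientGroup.eq_one_iff e).mpr he, mul_one])
  letI := instF
  letI := instFt
  letI := instFV
  letI := instFVt
  have hcardF : Fintype.card F = Nat.card ↥(Subgroup.center P) := by
    rw [← Nat.card_eq_fintype_card]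
    exact (Nat.card_congr (Equiv.ofBijective cE hcEbij)).symm
  have hcardQ : Nat.card (P ⧸ Subgroup.center P) = Nat.card ↥(Subgroup.center P) := by
    have h := Subgroup.card_eq_card_quotient_mul_card_subgroup (Subgroup.center P)
    rw [hcard, sq] at h
    have hpos : 0 < Nat.card ↥(Subgroup.center P) := Nat.card_pos
    exact (Nat.eq_of_mul_eq_mul_right hpos h).symm
  have hcardFV : Fintype.card FV = Fintype.card F := by
    rw [hcardF, ← hcardQ, ← Nat.card_eq_fintype_card]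
    exact (Nat.card_congr (Equiv.ofBijective cV hcVbij)).symm
  let ρ : FV ≃+* F := FiniteField.ringEquivOfCardEq hcardFV
  let abar : P → F := fun x => ρ (cV (x : P ⧸ Subgroup.center P))
  have habar_def : ∀ x, abar x = ρ (cV (x : P ⧸ Subgroup.center P)) := fun x => rfl
  have habar_mul : ∀ x y, abar (x * y) = abar x + abar y := by
    intro x y
    rw [habar_def, habar_def, habar_def, QuotientGroup.mk_mul, hcVmul, map_add]
  have hcV_one : cV 1 = 0 := by
    have h := hcVmul 1 1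
    rw [mul_one] at h
    exact left_eq_add.mp h
  have hcE_one : cE 1 = 0 := by
    have h := hcEmul 1 1
    rw [mul_one] at h
    exact left_eq_add.mp h
  have habar_ker : ∀ x, abar x = 0 ↔ x ∈ Subgroup.center P := by
    intro x
    rw [habar_def, map_eq_zero_iff ρ ρ.injective, ← hcV_one, hcVbij.1.eq_iff,
      QuotientGroup.eq_one_iff]
  have habar_surj : Function.Surjective abar := by
    intro u
    obtain ⟨q, hq⟩ := hcVbij.2 (ρ.symm u)
    induction q using QuotientGroup.induction_on with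
    | H a => exact ⟨a, by rw [habar_def, hq, RingEquiv.apply_symm_apply]⟩
  have habar_g : ∀ x, abar (g x) = ρ mu0 * abar x := by
    intro x
    rw [habar_def, habar_def, ← hgV, hcVmu, map_mul]
  have habar_gpow : ∀ (i : ℕ) (x : P), abar ((g ^ i) x) = (ρ mu0) ^ i * abar x := by
    intro i
    induction i with
    | zero => intro x; rw [pow_zero, pow_zero, one_mul]; rfl
    | succ i ih => intro x; rw [pow_succ', MulAut.mul_apply, habar_g, ih, pow_succ', mul_assoc]
  have habar_x₁ : abar x₁ = 1 := by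
    rw [habar_def, hcV1, map_one]
  have habar_central : ∀ e, e ∈ Subgroup.center P → abar e = 0 := fun e he => (habar_ker e).mpr he
  -- characteristic two
  have h2F : (2 : F) = 0 := by
    have h := hcEmul ⟨x₁ * x₁, hx₁sq⟩ ⟨x₁ * x₁, hx₁sq⟩
    have hsq : (⟨x₁ * x₁, hx₁sq⟩ : ↥(Subgroup.center P)) * ⟨x₁ * x₁, hx₁sq⟩ = 1 :=
      Subtype.ext (hZ2 _ hx₁sq)
    rw [hsq, hcE_one, hcE1] at h
    rw [← one_add_one_eq_two]
    exact h.symm
  haveI : CharP F 2 := CharTwo.of_one_ne_zero_of_two_eq_zero one_ne_zero h2F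
  -- squares and commutators
  let S : P → F := fun x => cE ⟨x * x, hsqZ x⟩
  let C : P → P → F := fun y x => cE ⟨⁅y, x⁆, hcomm y x⟩
  have hS_def : ∀ x, S x = cE ⟨x * x, hsqZ x⟩ := fun x => rfl
  have hC_def : ∀ y x, C y x = cE ⟨⁅y, x⁆, hcomm y x⟩ := fun y x => rfl
  have hS_mul : ∀ x y, S (x * y) = S x + S y + C y x := by
    intro x y
    have h : (⟨(x * y) * (x * y), hsqZ (x * y)⟩ : ↥(Subgroup.center P)) =
        ⟨⁅y, x⁆, hcomm y x⟩ * ⟨x * x, hsqZ x⟩ * ⟨y * y, hsqZ y⟩ :=
      Subtype.ext (comm_sq_formula x y (hcomm y x))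
    rw [hS_def, hS_def, hS_def, hC_def, h, hcEmul, hcEmul]
    ring
  have hS_central : ∀ x e, e ∈ Subgroup.center P → S (x * e) = S x := by
    intro x e he
    rw [hS_def, hS_def]
    congr 1
    exact Subtype.ext (sq_mul_central' x e he (hZ2 e he))
  have hS_g : ∀ x, S (g x) = lam * S x := by
    intro x
    rw [hS_def, hS_def, ← hcElam]
    congr 1
    exact Subtype.ext (map_mul g x x).symm
  have hC_add : ∀ y x x', C y (x * x') = C y x + C y x' := by
    intro y x x'
    rw [hC_def, hC_def, hC_def, ← hcEmul]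
    congr 1
    exact Subtype.ext (comm_mul_right_of_central y x x' (hcomm y x'))
  have habar_one : abar 1 = 0 := habar_central 1 (Subgroup.one_mem _)
  have hS_abar : ∀ x y, abar x = abar y → S x = S y := by
    intro x y h
    have he : x⁻¹ * y ∈ Subgroup.center P := by
      rw [← habar_ker, habar_mul, ← h, ← habar_mul, inv_mul_cancel, habar_one]
    have hy : y = x * (x⁻¹ * y) := by group
    rw [hy, hS_central _ _ he]
  let lift : F → P := Function.surjInv habar_surj
  have hlift : ∀ u, abar (lift u) = u := Function.surjInv_eq habar_surj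
  let s' : F → F := fun u => S (lift u)
  have hs'_def : ∀ u, s' u = S (lift u) := fun u => rfl
  have hs' : ∀ x, s' (abar x) = S x := fun x => hS_abar _ _ (hlift (abar x))
  have hS_one : S 1 = 0 := by
    rw [hS_def, ← hcE_one]
    congr 1
    exact Subtype.ext (mul_one 1)
  have hS_x₁ : S x₁ = 1 := by rw [hS_def, hcE1]
  have h0 : s' 0 = 0 := by
    have h := hs' 1
    rw [habar_one, hS_one] at h
    exact h
  have h1 : s' 1 = 1 := by
    have h := hs' x₁
    rw [habar_x₁, hS_x₁] at h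
    exact h
  have hμ : ∀ u : F, u ≠ 0 → ∃ i : ℕ, u = (ρ mu0) ^ i := by
    intro u hu
    obtain ⟨x, rfl⟩ := habar_surj u
    have hx : x ∉ Subgroup.center P := fun h => hu (habar_central x h)
    obtain ⟨i, e, he, rfl⟩ := hT1 x₁ hx₁ x hx
    refine ⟨i, ?_⟩
    rw [habar_mul, habar_gpow, habar_x₁, habar_central e he, mul_one, add_zero]
  have heq : ∀ u, s' (ρ mu0 * u) = lam * s' u := by
    intro u
    obtain ⟨x, rfl⟩ := habar_surj u
    rw [← habar_g, hs', hs', hS_g]
  have hB : ∀ u u' v, s' (u + u' + v) - s' (u + u') - s' v =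
      (s' (u + v) - s' u - s' v) + (s' (u' + v) - s' u' - s' v) := by
    intro u u' v
    obtain ⟨x, rfl⟩ := habar_surj u
    obtain ⟨x', rfl⟩ := habar_surj u'
    obtain ⟨y, rfl⟩ := habar_surj v
    rw [← habar_mul x x', ← habar_mul (x * x') y, ← habar_mul x y, ← habar_mul x' y]
    simp only [hs']
    rw [hS_mul (x * x') y, hS_mul x y, hS_mul x' y, hC_add]
    ring
  have hne : ∃ u v, s' (u + v) - s' u - s' v ≠ 0 := by
    obtain ⟨x, y, hxy⟩ := hnab
    refine ⟨abar x, abar y, ?_⟩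
    rw [← habar_mul, hs', hs', hs', hS_mul]
    intro h
    have hC0 : C y x = 0 := by rw [← h]; ring
    rw [hC_def, ← hcE_one] at hC0
    have h1 := congrArg Subtype.val (hcEbij.1 hC0)
    have h2 : ⁅y, x⁆ = 1 := h1
    rw [commutatorElement_eq_one_iff_mul_comm] at h2
    exact hxy h2.symm
  obtain ⟨σ, τ, hστ, hs⟩ := quad_of_equivariant s' (ρ mu0) lam h0 h1 hμ heq hB hne
  let φ : F ≃+* F := σ.symm.trans τ
  have hφσ : ∀ u, φ (σ u) = τ u := by
    intro u
    show τ (σ.symm (σ u)) = τ u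
    rw [RingEquiv.symm_apply_apply]
  let a : P → F := fun x => σ (abar x)
  have ha_def : ∀ x, a x = σ (abar x) := fun x => rfl
  have hSa : ∀ x, S x = a x * φ (a x) := by
    intro x
    rw [ha_def, hφσ, ← hs, hs']
  have ha_surj : Function.Surjective a := by
    intro u
    obtain ⟨x, hx⟩ := habar_surj (σ.symm u)
    exact ⟨x, by rw [ha_def, hx, RingEquiv.apply_symm_apply]⟩
  have ha_mul : ∀ x y, a (x * y) = a x + a y := by
    intro x y
    rw [ha_def, ha_def, ha_def, habar_mul, map_add]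
  have ha_ker : ∀ x, a x = 0 ↔ x ∈ Subgroup.center P := by
    intro x
    rw [ha_def, map_eq_zero_iff σ σ.injective, habar_ker]
  have hφne : φ ≠ RingEquiv.refl F := by
    intro h
    apply hστ
    ext u
    rw [← hφσ, h]
    rfl
  have hinj : ∀ x y : F, x * φ x = y * φ y → x = y := by
    intro x y hxy
    obtain ⟨p, rfl⟩ := ha_surj x
    obtain ⟨q, rfl⟩ := ha_surj y
    rw [← hSa, ← hSa, hS_def, hS_def] at hxy
    have hpq : p * p = q * q := congrArg Subtype.val (hcEbij.1 hxy)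
    by_cases hp : p ∈ Subgroup.center P
    · have hq : q ∈ Subgroup.center P := hsq1 q (by rw [← hpq]; exact hZ2 p hp)
      rw [(ha_ker p).mpr hp, (ha_ker q).mpr hq]
    · have hq : q ∉ Subgroup.center P := by
        intro hq
        exact hp (hsq1 p (by rw [hpq]; exact hZ2 q hq))
      obtain ⟨i, e, he, rfl⟩ := hT1 p hp q hq
      rw [hsq_orbit i p e he] at hpq
      have hpp : p * p ≠ 1 := fun h => hp (hsq1 p h)
      have hgi : g ^ i = 1 := hfree (g ^ i) (Subgroup.pow_mem _ (Subgroup.mem_zpowers g) i)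
        (p * p) hpp hpq.symm
      rw [hgi, ha_mul, (ha_ker e).mpr he, add_zero]
      rfl
  have hodd : Odd (orderOf φ) := odd_orderOf_of_norm_injective φ hinj
  refine ⟨F, instF, instFt, φ, hcardF, hφne, hodd, ?_⟩
  obtain ⟨φ', hφ'⟩ : ∃ φ' : F →+* F, φ' = (φ : F →+* F) := ⟨_, rfl⟩
  have hφ'app : ∀ u, φ' u = φ u := by intro u; rw [hφ']; rfl
  rw [← hφ']
  let b : ↥(Cfsg.suzukiTypeA F φ') → F :=
    fun t => ((t.1 : GL (Fin 3) F) : Matrix (Fin 3) (Fin 3) F) 1 0
  have hb_def : ∀ t : ↥(Cfsg.suzukiTypeA F φ'),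
      b t = ((t.1 : GL (Fin 3) F) : Matrix (Fin 3) (Fin 3) F) 1 0 := fun t => rfl
  have hb_gA : ∀ (x y : F) (h : gA φ' x y ∈ Cfsg.suzukiTypeA F φ'),
      b ⟨gA φ' x y, h⟩ = x := fun x y h => gA_entry10 φ' x y
  have hT_ex : ∀ t : ↥(Cfsg.suzukiTypeA F φ'), ∃ x y, t = ⟨gA φ' x y, gA_mem φ' x y⟩ := by
    intro t
    obtain ⟨x, y, h⟩ := exists_gA_of_mem φ' t.2
    exact ⟨x, y, Subtype.ext h⟩
  have hT_mul : ∀ x y x' y' : F,
      (⟨gA φ' x y, gA_mem φ' x y⟩ : ↥(Cfsg.suzukiTypeA F φ')) * ⟨gA φ' x' y', gA_mem φ' x' y'⟩ =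
        ⟨gA φ' (x + x') (y + y' + φ' x * x'), gA_mem φ' _ _⟩ :=
    fun x y x' y' => Subtype.ext (gA_mul φ' x y x' y')
  have hT_eq : ∀ x y x' y' : F, x = x' → y = y' →
      (⟨gA φ' x y, gA_mem φ' x y⟩ : ↥(Cfsg.suzukiTypeA F φ')) = ⟨gA φ' x' y', gA_mem φ' x' y'⟩ := by
    intro x y x' y' h1 h2
    subst h1; subst h2; rfl
  have hb_mul : ∀ t t' : ↥(Cfsg.suzukiTypeA F φ'), b (t * t') = b t + b t' := by
    intro t t'
    obtain ⟨x, y, rfl⟩ := hT_ex t
    obtain ⟨x', y', rfl⟩ := hT_ex t'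
    rw [hT_mul, hb_gA, hb_gA, hb_gA]
  have hb_surj : Function.Surjective b := fun u => ⟨⟨gA φ' u 0, gA_mem φ' u 0⟩, hb_gA u 0 _⟩
  let γ : ↥(Subgroup.center P) →* ↥(Cfsg.suzukiTypeA F φ') :=
    { toFun := fun e => ⟨gA φ' 0 (cE e), gA_mem φ' 0 (cE e)⟩
      map_one' := by
        apply Subtype.ext
        show gA φ' 0 (cE 1) = 1
        rw [hcE_one, gA_zero]
      map_mul' := by
        intro e e'
        rw [hT_mul]
        apply hT_eq
        · rw [add_zero]
        · rw [hcEmul, map_zero, zero_mul, add_zero] }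
  have hγ_def : ∀ e, γ e = ⟨gA φ' 0 (cE e), gA_mem φ' 0 (cE e)⟩ := fun e => rfl
  have hγinj : Function.Injective γ := by
    intro e e' h
    rw [hγ_def, hγ_def] at h
    exact hcEbij.1 (gA_injective φ' (congrArg Subtype.val h)).2
  have hγb : ∀ t, b t = 0 ↔ ∃ e, γ e = t := by
    intro t
    obtain ⟨x, y, rfl⟩ := hT_ex t
    rw [hb_gA]
    constructor
    · intro hx
      obtain ⟨e, he⟩ := hcEbij.2 y
      refine ⟨e, ?_⟩
      rw [hγ_def]
      exact hT_eq _ _ _ _ hx.symm he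
    · rintro ⟨e, he⟩
      rw [hγ_def] at he
      exact ((gA_injective φ' (congrArg Subtype.val he)).1).symm
  have hcT : ∀ e, γ e ∈ Subgroup.center ↥(Cfsg.suzukiTypeA F φ') := by
    intro e
    rw [Subgroup.mem_center_iff]
    intro t
    obtain ⟨x, y, rfl⟩ := hT_ex t
    rw [hγ_def, hT_mul, hT_mul]
    apply hT_eq
    · rw [add_comm]
    · rw [map_zero, zero_mul, mul_zero]; ring
  have hsq : ∀ (p : P) (t : ↥(Cfsg.suzukiTypeA F φ')), a p = b t →
      ∃ h : p * p ∈ Subgroup.center P, γ ⟨p * p, h⟩ = t * t := by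
    intro p t hpt
    refine ⟨hsqZ p, ?_⟩
    obtain ⟨x, y, rfl⟩ := hT_ex t
    rw [hb_gA] at hpt
    rw [hγ_def, hT_mul]
    apply hT_eq
    · exact (CharTwo.add_self_eq_zero x).symm
    · rw [CharTwo.add_self_eq_zero, zero_add, ← hS_def, hSa, hpt, hφ'app, mul_comm]
  exact iso_of_square_data a b ha_mul hb_mul ha_surj hb_surj (Subgroup.center P) ha_ker le_rfl
    γ hγinj hγb hcT hsq

end Cfsg.Agent.Lib.Helper60
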