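import Cfsg.Agent.Lib.Helper98.T73Defs

/-!
# Project T73 (helper98, S5973), piece WIEX (helper60)

A nondegenerate quadratic space of dimension `2k+2` and type `ε` has totally singular subspaces
of every dimension `≤ wi k ε` (transport from the standard models).
-/

set_option autoImplicit false

namespace Cfsg.Agent.Lib.Helper98.T73

open Cfsg.Agent.Lib.Helper47 Module Polynomial

open Cfsg.Agent.Lib.Helper2.QuadMINUSTYP Cfsg.Agent.Lib.Helper4.Quad Cfsg.Agent.Lib.Helper5.QuadAC
  Cfsg.Agent.Lib.Helper23.Quad Cfsg.Agent.Lib.Helper66.QuadSTD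

universe u

section WiexAux

variable {F : Type*} [Field F]

/-- the embedding of `F^w` on the first `w` coordinates of the first half -/
def wiexIotaP (m w : ℕ) : (Fin w → F) →ₗ[F] (Fin m ⊕ Fin m → F) where
  toFun y := Sum.elim (fun a : Fin m => if h : a.val < w then y ⟨a.val, h⟩ else 0) (fun _ => 0)
  map_add' y y' := by
    funext s
    rcases s with a | b
    · simp only [Sum.elim_inl, Pi.add_apply]
      split_ifs <;> simp
    · simp
  map_smul' c y := by
    funext s
    rcases s with a | b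
    · simp only [Sum.elim_inl, Pi.smul_apply, RingHom.id_apply]
      split_ifs <;> simp
    · simp

theorem wiexIotaP_inj (m w : ℕ) (hw : w ≤ m) : Function.Injective (wiexIotaP (F := F) m w) := by
  intro y y' h
  funext i
  have h1 := congrFun h (Sum.inl ⟨i.val, lt_of_lt_of_le i.isLt hw⟩)
  simp only [wiexIotaP, LinearMap.coe_mk, AddHom.coe_mk, Sum.elim_inl] at h1
  rw [dif_pos i.isLt, dif_pos i.isLt] at h1
  exact h1

theorem wiexIotaP_sing (m w : ℕ) (y : Fin w → F) :
    Cfsg.quadFormPlus m F (wiexIotaP m w y) = 0 := by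
  unfold Cfsg.quadFormPlus
  apply Finset.sum_eq_zero
  intro i _
  simp [wiexIotaP]

/-- the same embedding into the minus model -/
def wiexIotaM (m w : ℕ) : (Fin w → F) →ₗ[F] ((Fin m ⊕ Fin m) ⊕ Fin 2 → F) where
  toFun y := Sum.elim (wiexIotaP m w y) (fun _ => 0)
  map_add' y y' := by
    funext s
    rcases s with a | b
    · simp [map_add]
    · simp
  map_smul' c y := by
    funext s
    rcases s with a | b
    · simp [map_smul]
    · simp

theorem wiexIotaM_inj (m w : ℕ) (hw : w ≤ m) : Function.Injective (wiexIotaM (F := F) m w) := by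
  intro y y' h
  apply wiexIotaP_inj m w hw
  funext s
  have h1 := congrFun h (Sum.inl s)
  simpa [wiexIotaM] using h1

theorem wiexIotaM_sing (m w : ℕ) (a c : F) (y : Fin w → F) :
    Cfsg.quadFormMinus m F a c (wiexIotaM m w y) = 0 := by
  unfold Cfsg.quadFormMinus
  have h1 : ∑ i : Fin m, wiexIotaM m w y (.inl (.inl i)) * wiexIotaM m w y (.inl (.inr i)) = 0 := by
    apply Finset.sum_eq_zero
    intro i _
    simp [wiexIotaM, wiexIotaP]
  rw [h1]
  simp [wiexIotaM]

/-- transport of a totally singular subspace along an isometry -/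
theorem wiex_transport {F : Type u} [Field F] {V M : Type u} [AddCommGroup V] [Module F V]
    [AddCommGroup M] [Module F M]
    (Q : V → F) (Q' : M → F) (φ : V ≃ₗ[F] M) (hφ : ∀ v, Q' (φ v) = Q v) (w : ℕ)
    (ι : (Fin w → F) →ₗ[F] M) (hι : Function.Injective ι) (hs : ∀ y, Q' (ι y) = 0) :
    ∃ U : Submodule F V, finrank F U = w ∧ TS Q U := by
  refine ⟨LinearMap.range (φ.symm.toLinearMap ∘ₗ ι), ?_, ?_⟩
  · rw [LinearMap.finrank_range_of_inj]
    · simp
    · exact φ.symm.injective.comp hι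
  · rintro _ ⟨y, rfl⟩
    show Q (φ.symm (ι y)) = 0
    rw [← hφ, LinearEquiv.apply_symm_apply]
    exact hs y

end WiexAux

variable {F : Type u} [Field F] [Fintype F] {V : Type u} [AddCommGroup V] [Module F V]
  [FiniteDimensional F V] {Q : V → F} {B : V → V → F}

/-- WIEX -/
theorem wi_exists (hf : QFacts F) (hQ : IsQuad Q B) (hnd : Nondeg B) (k : ℕ)
    (hdim : finrank F V = 2 * k + 2) (ε : ℤ) (htyp : IsTyp Q k ε)
    (p : ℕ) [Fact p.Prime] [CharP F p] (w : ℕ) (hw : w ≤ wi k ε) :
    ∃ U : Submodule F V, finrank F U = w ∧ TS Q U := by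
  rcases hf.typ_exists k V Q B hQ hnd hdim with h1 | h1
  · have hε : ε = 1 := htyp.unique h1
    subst hε
    have hw' : w ≤ k + 1 := by
      have h2 : wi k 1 = k + 1 := by
        unfold wi
        rw [if_pos rfl]
      omega
    obtain ⟨φ, hφ⟩ := hf.isometric k 1 V (Fin (k + 1) ⊕ Fin (k + 1) → F) Q B
      (Cfsg.quadFormPlus (k + 1) F) (plusB (k + 1) F) hQ hnd hdim (quadFormPlus_isQuad (k + 1))
      (plusB_nondeg (k + 1)) (by simp; ring) htyp (isTyp_quadFormPlus k)
    exact wiex_transport Q _ φ hφ w (wiexIotaP (k + 1) w) (wiexIotaP_inj _ _ hw')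
      (wiexIotaP_sing _ _)
  · have hε : ε = -1 := htyp.unique h1
    subst hε
    have hw' : w ≤ k := by
      have h2 : wi k (-1) = k := by
        unfold wi
        rw [if_neg (by norm_num)]
      omega
    obtain ⟨a, c, hac⟩ := exists_isAniso (F := F)
    obtain ⟨φ, hφ⟩ := hf.isometric k (-1) V ((Fin k ⊕ Fin k) ⊕ Fin 2 → F) Q B
      (Cfsg.quadFormMinus k F a c) (minusB k F a c) hQ hnd hdim (quadFormMinus_isQuad k a c)
      (minusB_nondeg k a c hac) (by simp; ring) htyp
      (isTyp_quadFormMinus_of k a c (fun Q₁ Q₂ _ _ _ _ h₁ h₂ => hf.typ_prod Q₁ Q₂ h₁ h₂)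
        isTyp_quadFormPlus (isTyp_aniso a c hac))
    exact wiex_transport Q _ φ hφ w (wiexIotaM k w) (wiexIotaM_inj _ _ hw')
      (fun y => wiexIotaM_sing _ _ a c y)

/-- WIEX -/
theorem sub_wi_exists (hf : QFacts F) (hQ : IsQuad Q B) (p : ℕ) [Fact p.Prime] [CharP F p]
    (K : Submodule F V) (e : ℕ) (η : ℤ) (hK : SubTyp Q B K e η) (w : ℕ) (hw : w ≤ wi e η) :
    ∃ U : Submodule F V, U ≤ K ∧ finrank F U = w ∧ TS Q U := by
  obtain ⟨hnd, hdim, htyp⟩ := hK
  obtain ⟨U', hU'1, hU'2⟩ := wi_exists (V := K) (Q := fun x : K => Q (x : V))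
    (B := resForm B K) hf (hQ.res K) hnd e hdim η htyp p w hw
  refine ⟨U'.map K.subtype, Submodule.map_subtype_le K U', ?_, ?_⟩
  · rw [← hU'1]
    exact (Submodule.equivMapOfInjective K.subtype K.injective_subtype U').finrank_eq.symm
  · rintro _ ⟨x, hx, rfl⟩
    exact hU'2 x hx

end Cfsg.Agent.Lib.Helper98.T73
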