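import Mathlib

set_option autoImplicit false

/-!
# S5588, piece SPIDER (helper60 for helper38)

Seven involutions `a, b_i, c_i` with the listed commutations; `x_i = a b_i c_i`.  From
`(x₁ x₂ x₃)¹⁰ = 1` we get the same relation for the other five orderings.  Rotations are conjugates;
the reversed product `x₃ x₂ x₁` is conjugate to the inverse of `x₁ x₂ x₃`.
-/

namespace Cfsg.Agent.Lib.Helper60.Y5

theorem pow_eq_one_of_conj {K : Type*} [Group K] (g x y : K) (n : ℕ) (h : y = g * x * g⁻¹)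
    (hx : x ^ n = 1) : y ^ n = 1 := by
  rw [h, conj_pow, hx, mul_one, mul_inv_cancel]

theorem spider_perms {K : Type*} [Group K] (a b1 c1 b2 c2 b3 c3 : K)
    (ha : a * a = 1) (hb1 : b1 * b1 = 1) (hc1 : c1 * c1 = 1) (hb2 : b2 * b2 = 1) (hc2 : c2 * c2 = 1)
    (hb3 : b3 * b3 = 1) (hc3 : c3 * c3 = 1)
    (hac1 : a * c1 = c1 * a) (hac2 : a * c2 = c2 * a) (hac3 : a * c3 = c3 * a)
    (hc12 : c1 * c2 = c2 * c1) (hc13 : c1 * c3 = c3 * c1) (hc23 : c2 * c3 = c3 * c2)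
    (hb1c2 : b1 * c2 = c2 * b1) (hb1c3 : b1 * c3 = c3 * b1) (hb2c1 : b2 * c1 = c1 * b2)
    (hb2c3 : b2 * c3 = c3 * b2) (hb3c1 : b3 * c1 = c1 * b3) (hb3c2 : b3 * c2 = c2 * b3)
    (h : (a * b1 * c1 * a * b2 * c2 * a * b3 * c3) ^ 10 = 1) :
    (a * b2 * c2 * a * b1 * c1 * a * b3 * c3) ^ 10 = 1 ∧
    (a * b3 * c3 * a * b1 * c1 * a * b2 * c2) ^ 10 = 1 ∧
    (a * b3 * c3 * a * b2 * c2 * a * b1 * c1) ^ 10 = 1 ∧
    (a * b1 * c1 * a * b3 * c3 * a * b2 * c2) ^ 10 = 1 ∧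
    (a * b2 * c2 * a * b3 * c3 * a * b1 * c1) ^ 10 = 1 := by
  -- commutation facts
  have Ac1 : Commute a c1 := hac1
  have Ac2 : Commute a c2 := hac2
  have Ac3 : Commute a c3 := hac3
  have B1c2 : Commute b1 c2 := hb1c2
  have B1c3 : Commute b1 c3 := hb1c3
  have B2c1 : Commute b2 c1 := hb2c1
  have B2c3 : Commute b2 c3 := hb2c3
  have B3c1 : Commute b3 c1 := hb3c1
  have B3c2 : Commute b3 c2 := hb3c2
  have k1 : Commute c3 (a * b2) := Ac3.symm.mul_right B2c3.symm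
  have k2 : Commute (c3 * c2) (a * b1) :=
    (Ac3.symm.mul_right B1c3.symm).mul_left (Ac2.symm.mul_right B1c2.symm)
  have k3 : Commute (a * b3 * a) c2 := (Ac2.mul_left B3c2).mul_left Ac2
  have k4 : Commute (a * b3 * a * b2 * a) c1 :=
    ((((Ac1.mul_left B3c1).mul_left Ac1).mul_left B2c1).mul_left Ac1)
  -- inverses
  have ia : a⁻¹ = a := inv_eq_of_mul_eq_one_right ha
  have ib1 : b1⁻¹ = b1 := inv_eq_of_mul_eq_one_right hb1
  have ib2 : b2⁻¹ = b2 := inv_eq_of_mul_eq_one_right hb2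
  have ib3 : b3⁻¹ = b3 := inv_eq_of_mul_eq_one_right hb3
  have ic1 : c1⁻¹ = c1 := inv_eq_of_mul_eq_one_right hc1
  have ic2 : c2⁻¹ = c2 := inv_eq_of_mul_eq_one_right hc2
  have ic3 : c3⁻¹ = c3 := inv_eq_of_mul_eq_one_right hc3
  -- the inverse of `s`
  have hsinv : (a * b1 * c1 * a * b2 * c2 * a * b3 * c3)⁻¹
      = c3 * b3 * a * c2 * b2 * a * c1 * b1 * a := by
    simp only [mul_inv_rev, ia, ib1, ib2, ib3, ic1, ic2, ic3, mul_assoc]
  have ht : (c3 * b3 * a * c2 * b2 * a * c1 * b1 * a) ^ 10 = 1 := by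
    rw [← hsinv, inv_pow, h, inv_one]
  -- the reversed product
  have hA : a * b3 * c3 * a * b2 * c2 * a * b1 * c1
      = (a * b3 * a * b2 * a * b1) * (c3 * c2 * c1) := by
    calc a * b3 * c3 * a * b2 * c2 * a * b1 * c1
        = a * b3 * (c3 * (a * b2)) * c2 * (a * b1) * c1 := by group
      _ = a * b3 * ((a * b2) * c3) * c2 * (a * b1) * c1 := by rw [k1.eq]
      _ = a * b3 * (a * b2) * ((c3 * c2) * (a * b1)) * c1 := by group
      _ = a * b3 * (a * b2) * ((a * b1) * (c3 * c2)) * c1 := by rw [k2.eq]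
      _ = (a * b3 * a * b2 * a * b1) * (c3 * c2 * c1) := by group
  have hB : a * (c3 * b3 * a * c2 * b2 * a * c1 * b1 * a) * a⁻¹
      = (c3 * c2 * c1) * (a * b3 * a * b2 * a * b1) := by
    calc a * (c3 * b3 * a * c2 * b2 * a * c1 * b1 * a) * a⁻¹
        = (a * c3) * (b3 * a) * c2 * (b2 * a) * c1 * b1 := by group
      _ = (c3 * a) * (b3 * a) * c2 * (b2 * a) * c1 * b1 := by rw [hac3]
      _ = c3 * ((a * b3 * a) * c2) * (b2 * a) * c1 * b1 := by group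
      _ = c3 * (c2 * (a * b3 * a)) * (b2 * a) * c1 * b1 := by rw [k3.eq]
      _ = c3 * c2 * ((a * b3 * a * b2 * a) * c1) * b1 := by group
      _ = c3 * c2 * (c1 * (a * b3 * a * b2 * a)) * b1 := by rw [k4.eq]
      _ = (c3 * c2 * c1) * (a * b3 * a * b2 * a * b1) := by group
  have hr : a * b3 * c3 * a * b2 * c2 * a * b1 * c1
      = ((c3 * c2 * c1)⁻¹ * a) * (c3 * b3 * a * c2 * b2 * a * c1 * b1 * a)
        * ((c3 * c2 * c1)⁻¹ * a)⁻¹ := by
    have e : ((c3 * c2 * c1)⁻¹ * a) * (c3 * b3 * a * c2 * b2 * a * c1 * b1 * a)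
        * ((c3 * c2 * c1)⁻¹ * a)⁻¹
        = (c3 * c2 * c1)⁻¹ * (a * (c3 * b3 * a * c2 * b2 * a * c1 * b1 * a) * a⁻¹)
          * (c3 * c2 * c1) := by group
    rw [e, hB, hA]
    group
  have h3 : (a * b3 * c3 * a * b2 * c2 * a * b1 * c1) ^ 10 = 1 :=
    pow_eq_one_of_conj _ _ _ 10 hr ht
  refine ⟨?_, ?_, h3, ?_, ?_⟩
  · exact pow_eq_one_of_conj ((a * b3 * c3)⁻¹) (a * b3 * c3 * a * b2 * c2 * a * b1 * c1) _ 10
      (by group) h3
  · exact pow_eq_one_of_conj (a * b3 * c3) (a * b1 * c1 * a * b2 * c2 * a * b3 * c3) _ 10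
      (by group) h
  · exact pow_eq_one_of_conj (a * b1 * c1) (a * b3 * c3 * a * b2 * c2 * a * b1 * c1) _ 10
      (by group) h3
  · exact pow_eq_one_of_conj ((a * b1 * c1)⁻¹) (a * b1 * c1 * a * b2 * c2 * a * b3 * c3) _ 10
      (by group) h

end Cfsg.Agent.Lib.Helper60.Y5
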